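import Cfsg.Agent.H6.L4.If
import Cfsg.Agent.H6.S4.F2

/-! Subgroups of `SL_4`, generic case: the commutator pairing of lifts, abstractly. -/

set_option autoImplicit false
set_option linter.unusedVariables false

namespace Cfsg.Agent.LD.F4

open Subgroup Module Cfsg.Agent.H8.M3

universe u

section abstract
variable {G : Type u} [Group G] {Y N : G → G → Prop} {a b g s t u v x y : G}

/-- `⟨t, u⟩` is a four-group whose lifts commute (type I) -/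
structure F1 (Y : G → G → Prop) (t u : G) : Prop where
  it : IsInv t
  iu : IsInv u
  ne : t ≠ u
  y : Y t u

/-- the two kernels of the action of `{g | Y g t}` on the eigenspaces of the involution `t` -/
structure KK (Y N : G → G → Prop) (t : G) (K1 K2 : Subgroup G) : Prop where
  y1 : ∀ x ∈ K1, Y x t
  y2 : ∀ x ∈ K2, Y x t
  n1 : ∀ g, Y g t → ∀ x ∈ K1, g * x * g⁻¹ ∈ K1
  n2 : ∀ g, Y g t → ∀ x ∈ K2, g * x * g⁻¹ ∈ K2
  cm : ∀ x ∈ K1, ∀ y ∈ K2, Y x y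
  i1 : ∀ x ∈ K1, x * x = 1 → x = 1 ∨ x = t
  i2 : ∀ x ∈ K2, x * x = 1 → x = 1 ∨ x = t
  s1 : ∀ s, N s t → ∀ x ∈ K1, x * x = 1 ∨ x * x = t
  s2 : ∀ s, N s t → ∀ x ∈ K2, x * x = 1 ∨ x * x = t
  rt : ∀ u y, F1 Y t u → Y y t → Y y u → y * y = t → (y ∈ K1 ∧ y * u ∈ K2) ∨ (y ∈ K2 ∧ y * u ∈ K1)

/-- `Y a b`: lifts of `a`, `b` commute; `N a b`: lifts anticommute -/
structure Ax (G : Type u) [Group G] (Y N : G → G → Prop) : Prop where
  sn : SN G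
  fin : Finite G
  yc : ∀ {a b}, Y a b → a * b = b * a
  nc : ∀ {a b}, N a b → a * b = b * a
  ys : ∀ {a b}, Y a b → Y b a
  ns : ∀ {a b}, N a b → N b a
  yr : ∀ a, Y a a
  y1 : ∀ a, Y 1 a
  yy : ∀ {a b x}, Y a x → Y b x → Y (a * b) x
  yn : ∀ {a b x}, Y a x → N b x → N (a * b) x
  ny : ∀ {a b x}, N a x → Y b x → N (a * b) x
  nn : ∀ {a b x}, N a x → N b x → Y (a * b) x
  yi : ∀ {a x}, Y a x → Y a⁻¹ x
  ni : ∀ {a x}, N a x → N a⁻¹ x
  nb : ∀ {a b}, Y a b → N a b → False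
  yj : ∀ {a b} (g : G), Y a b → Y (g * a * g⁻¹) (g * b * g⁻¹)
  nj : ∀ {a b} (g : G), N a b → N (g * a * g⁻¹) (g * b * g⁻¹)
  di : ∀ {g t}, t * t = 1 → g * t = t * g → Y g t ∨ N g t
  od : ∀ {g x} {n : ℕ}, Odd n → g ^ n = 1 → g * x = x * g → Y g x
  /-- an element fixing `t`, exchanging `u` and `t u` and swapping the eigenspaces of `t` -/
  sq : ∀ {t u w}, F1 Y t u → N w t → w * u * w⁻¹ = t * u → N (w * w) u
  q1 : ∀ {s t x}, t * t = 1 → N s t → Y x s → Y x t → x * x = 1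
  a2 : ∀ {t u v}, F1 Y t u → v * v = 1 → Y v t → Y v u → v = 1 ∨ v = t ∨ v = u ∨ v = t * u
  ab : ∀ {t u x y}, F1 Y t u → Y x t → Y x u → Y y t → Y y u → Y x y
  a5 : ∀ {t u x g}, F1 Y t u → Y x t → Y x u → x * x = t → Y g t → N g u → g * x * (g * x) = g * g
  a6 : ∀ {t}, IsInv t → ∃ K1 K2, KK Y N t K1 K2
  cy : ∀ {s t} (X : Subgroup G), IsInv t → N s t → (∀ x ∈ X, Y x t ∧ s * x * s⁻¹ = x⁻¹) →
    (∀ x ∈ X, x * x = 1 → x = 1 ∨ x = t) → IsCyclic X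

/-- an elementary abelian subgroup of order sixteen -/
def E16 (E : Subgroup G) : Prop := (∀ x ∈ E, x * x = 1) ∧ Nat.card E = 16

/-- case I: a 2-central involution without a swapping involution -/
def CaseI (N : G → G → Prop) (t : G) : Prop :=
  IsInv t ∧ Odd (Cen t).index ∧ ∀ s, N s t → s * s ≠ 1

/-- the local data of `L_3(4)` -/
structure L34 (Y N : G → G → Prop) (t u : G) (E E' : Subgroup G) : Prop where
  f1 : F1 Y t u
  e : E16 E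
  e' : E16 E'
  inf : ∀ x, x ∈ E ⊓ E' ↔ x = 1 ∨ x = t ∨ x = u ∨ x = t * u
  cen : Cen t = E ⊔ E'
  card : Nat.card (Cen t) = 64
  odd : Odd (Cen t).index
  tr : ∀ x ∈ E, x ≠ 1 → ∃ g ∈ normalizer (E : Set G), g * t * g⁻¹ = x
  tr' : ∀ x ∈ E', x ≠ 1 → ∃ g ∈ normalizer (E' : Set G), g * t * g⁻¹ = x
  inv : ∀ x ∈ Cen t, x * x = 1 → x ∈ E ∨ x ∈ E'
  cyc : ∃ h : G, h ^ 3 = 1 ∧ h * t * h⁻¹ = u ∧ h * u * h⁻¹ = t * u ∧ h ∈ normalizer (E : Set G) ∧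
    h ∈ normalizer (E' : Set G)

end abstract

variable {k V : Type*} [Field k] [AddCommGroup V] [Module k V]
  {G : Type u} [Group G] {P : Subgroup (End k V)ˣ}

/-- lifts commute -/
def Yc (π : P →* G) (a b : G) : Prop := ∃ x y : P, π x = a ∧ π y = b ∧ x.1 * y.1 = y.1 * x.1

/-- lifts anticommute -/
def Nc (π : P →* G) (a b : G) : Prop := ∃ x y : P, π x = a ∧ π y = b ∧ x.1 * y.1 = -(y.1 * x.1)

end Cfsg.Agent.LD.F4
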