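import Cfsg.Agent.LD.F4.If
import Cfsg.Agent.H1.ZD.RK

/-! Rank four: elementary abelian subgroups of order sixteen, local structure. -/

set_option autoImplicit false
set_option linter.unusedVariables false
set_option linter.unusedSectionVars false

namespace Cfsg.Agent.LD.F4

open Subgroup Cfsg.Agent.H8.M3 Cfsg.Agent.H7.BD Cfsg.Agent.H3.ZD

universe u

variable {G : Type u} [Group G] [Finite G] {Y N : G → G → Prop} {a b e g m n r s t u v w x y σ τ : G}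
  {E E' X : Subgroup G}

/-- membership in the four-group `⟨t, u⟩` -/
def B4 (t u x : G) : Prop := x = 1 ∨ x = t ∨ x = u ∨ x = t * u

theorem sq_mul (h : a * b = b * a) : a * b * (a * b) = a * a * (b * b) := by
  rw [mul_assoc, ← mul_assoc b, ← h]; simp only [mul_assoc]

theorem comm_of_sq (ha : a * a = 1) (hb : b * b = 1) (h : a * b * (a * b) = 1) : a * b = b * a := by
  rw [eq_inv_of_mul_eq_one_left h, mul_inv_rev, inv_of_sq ha, inv_of_sq hb]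

theorem cj_of (h : g * x = x * g) : g * x * g⁻¹ = x := by rw [h, mul_inv_cancel_right]

theorem of_cj (h : g * x * g⁻¹ = x) : g * x = x * g := mul_inv_eq_iff_eq_mul.1 h

theorem cj_sq (h : x * x = 1) (g : G) : g * x * g⁻¹ * (g * x * g⁻¹) = 1 := by
  rw [conj_mul, h, mul_one, mul_inv_cancel]

theorem cj_comm (h : x * y = y * x) (g : G) :
    g * x * g⁻¹ * (g * y * g⁻¹) = g * y * g⁻¹ * (g * x * g⁻¹) := by rw [conj_mul, conj_mul, h]

theorem B4.mem (h : B4 t u x) (ht : t ∈ X) (hu : u ∈ X) : x ∈ X := by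
  rcases h with rfl | rfl | rfl | rfl
  exacts [one_mem _, ht, hu, mul_mem ht hu]

theorem B4.comm (h : B4 t u x) (h1 : g * t = t * g) (h2 : g * u = u * g) : g * x = x * g :=
  (mem_Cen.1 (h.mem (X := Cen g) (mem_Cen.2 h1) (mem_Cen.2 h2)))

theorem card_le4 (h : ∀ x ∈ X, B4 t u x) : Nat.card X ≤ 4 := by
  have h1 : (X : Set G) ⊆ {1, t, u, t * u} := h
  have h2 := Set.ncard_le_ncard h1
  have h3 := Set.ncard_insert_le 1 ({t, u, t * u} : Set G)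
  have h4 := Set.ncard_insert_le t ({u, t * u} : Set G)
  have h5 := Set.ncard_insert_le u ({t * u} : Set G)
  rw [Set.ncard_singleton] at h5
  exact h2.trans (by omega)

theorem nm (hg : g ∈ normalizer (E : Set G)) (hx : x ∈ E) : g * x * g⁻¹ ∈ E :=
  (mem_normalizer_iff.1 hg x).1 hx

theorem nm' (hg : g ∈ normalizer (E : Set G)) (hx : g * x * g⁻¹ ∈ E) : x ∈ E :=
  (mem_normalizer_iff.1 hg x).2 hx

/-- conjugate subgroup -/
def cj (g : G) (E : Subgroup G) : Subgroup G := E.comap (MulAut.conj g⁻¹).toMonoidHom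

theorem mem_cj : x ∈ cj g E ↔ g⁻¹ * x * g ∈ E := by simp [cj]

theorem cj_mem : g * x * g⁻¹ ∈ cj g E ↔ x ∈ E := by simp [mem_cj, mul_assoc]

theorem card_cj (g : G) (E : Subgroup G) : Nat.card (cj g E) = Nat.card E :=
  Nat.card_congr ⟨fun x => ⟨_, mem_cj.1 x.2⟩, fun x => ⟨_, cj_mem.2 x.2⟩,
    fun x => Subtype.ext (by simp [mul_assoc]), fun x => Subtype.ext (by simp [mul_assoc])⟩

theorem cj_eq (h : cj g E = E) : g ∈ normalizer (E : Set G) :=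
  mem_normalizer_iff.2 fun x => by
    show x ∈ E ↔ g * x * g⁻¹ ∈ E
    rw [← cj_mem (g := g) (x := x), h]

theorem E16.cj (h : E16 E) (g : G) : E16 (cj g E) :=
  ⟨fun x hx => by simpa [mul_assoc] using cj_sq (h.1 _ (mem_cj.1 hx)) g, (card_cj g E).trans h.2⟩

theorem E16.comm (h : E16 E) (hx : x ∈ E) (hy : y ∈ E) : x * y = y * x :=
  comm_of_sq (h.1 x hx) (h.1 y hy) (h.1 _ (mul_mem hx hy))

theorem E16.eq (h : E16 E) (h' : E16 E') (le : E ≤ E') : E = E' :=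
  eq_of_le_of_card_ge le (by rw [h.2, h'.2])

theorem E16.pg (h : E16 E) : IsPGroup 2 E := IsPGroup.of_card (n := 4) h.2

namespace Ax

variable (A : Ax G Y N)
include A

theorem yy' (h : Y x a) (h' : Y x b) : Y x (a * b) := A.ys (A.yy (A.ys h) (A.ys h'))
theorem yn' (h : Y x a) (h' : N x b) : N x (a * b) := A.ns (A.yn (A.ys h) (A.ns h'))
theorem ny' (h : N x a) (h' : Y x b) : N x (a * b) := A.ns (A.ny (A.ns h) (A.ys h'))
theorem nn' (h : N x a) (h' : N x b) : Y x (a * b) := A.ys (A.nn (A.ns h) (A.ns h'))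

/-- the elements whose lifts commute with those of `t` -/
def Ky (t : G) : Subgroup G where
  carrier := {g | Y g t}
  one_mem' := A.y1 t
  mul_mem' := A.yy
  inv_mem' := A.yi

theorem mem_Ky : g ∈ A.Ky t ↔ Y g t := Iff.rfl

theorem yB (h : B4 t u x) (h1 : Y g t) (h2 : Y g u) : Y g x :=
  A.ys (h.mem (X := A.Ky g) (A.ys h1) (A.ys h2))

theorem yj' (h : Y a t) (e : g * t = t * g) : Y (g * a * g⁻¹) t := cj_of e ▸ A.yj g h
theorem nj' (h : N a t) (e : g * t = t * g) : N (g * a * g⁻¹) t := cj_of e ▸ A.nj g h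

theorem fs (h : F1 Y t u) : F1 Y u t := ⟨h.iu, h.it, h.ne.symm, A.ys h.y⟩

theorem fc (h : F1 Y t u) : t * u = u * t := A.yc h.y

theorem f2 (h : F1 Y t u) : t * u * (t * u) = 1 := by rw [sq_mul (A.fc h), h.it.1, h.iu.1, one_mul]

theorem fm (h : F1 Y t u) : F1 Y t (t * u) :=
  ⟨h.it, ⟨A.f2 h, fun e => h.ne ((eq_inv_of_mul_eq_one_left e).trans h.iu.inv_eq)⟩,
    fun e => h.iu.2 (left_eq_mul.1 e), A.yy' (A.yr t) h.y⟩

theorem fm' (h : F1 Y t u) : F1 Y (t * u) u := A.fc h ▸ A.fs (A.fm (A.fs h))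

theorem fj (h : F1 Y t u) (g : G) : F1 Y (g * t * g⁻¹) (g * u * g⁻¹) :=
  ⟨h.it.conj g, h.iu.conj g, fun e => h.ne (by simpa using e), A.yj g h.y⟩

theorem bs (h : F1 Y t u) : B4 u t x ↔ B4 t u x := by rw [B4, B4, A.fc h]; tauto

theorem bm (h : F1 Y t u) : B4 t (t * u) x ↔ B4 t u x := by
  rw [B4, B4, sq_cancel h.it.1]; tauto

theorem bm' (h : F1 Y t u) : B4 (t * u) u x ↔ B4 t u x := by
  rw [B4, B4, mul_assoc, h.iu.1, mul_one]; tauto

theorem a3 (ht : t * t = 1) (h : N g t) : g * g * (g * g) = 1 ∧ g * g ≠ t :=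
  ⟨A.q1 ht h (A.yy (A.yr g) (A.yr g)) (A.nn h h), fun e =>
    A.nb (A.yy' (A.yr g) (A.yr g)) (e ▸ h)⟩

theorem a1 (hs : s * s = 1) (ht : t * t = 1) (h : N s t) (h1 : g * s = s * g) (h2 : g * t = t * g) :
    g * g = 1 := by
  have c := A.nc h
  rcases A.di hs h1 with a | a <;> rcases A.di ht h2 with b | b
  · exact A.q1 ht h a b
  · simpa [sq_mul h1, hs] using A.q1 ht h (A.yy a (A.yr s)) (A.nn b h)
  · simpa [sq_mul h2, ht] using A.q1 ht h (A.nn a (A.ns h)) (A.yy b (A.yr t))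
  · have := A.q1 ht h (A.nn a (A.yn (A.yr s) (A.ns h))) (A.nn b (A.ny h (A.yr t)))
    rwa [sq_mul (by rw [← mul_assoc, h1, mul_assoc, h2, mul_assoc]), sq_mul c, hs, ht, mul_one,
      mul_one] at this

theorem a4 (h : F1 Y t u) (h1 : Y g t) (h2 : N g u) : g * g = 1 ∨ g * g = t := by
  obtain ⟨a, b⟩ := A.a3 h.iu.1 h2
  rcases A.a2 h a (A.yy h1 h1) (A.nn h2 h2) with e | e | e | e
  exacts [Or.inl e, Or.inr e, absurd e b, absurd e (A.a3 (A.f2 h) (A.yn' h1 h2)).2]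

theorem half (ht : t * t = 1) (h : ∀ x ∈ X, x * t = t * x) :
    Nat.card X ≤ 2 * Nat.card ↥(X ⊓ A.Ky t) := by
  by_cases e : ∃ s ∈ X, N s t
  · obtain ⟨s, hs, e⟩ := e
    exact card_le_two (g := s) fun y hy => (A.di ht (h y hy)).imp (fun a => ⟨hy, a⟩)
      fun a => ⟨mul_mem hy hs, A.nn a e⟩
  · exact card_le_two (g := 1) fun y hy => Or.inl ⟨hy, (A.di ht (h y hy)).resolve_right
      fun a => e ⟨y, hy, a⟩⟩

theorem le8 (h : F1 Y t u) (h2 : ∀ x ∈ X, x * x = 1) (h1 : ∀ x ∈ X, Y x t)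
    (hu : ∀ x ∈ X, x * u = u * x) : Nat.card X ≤ 8 :=
  (A.half h.iu.1 hu).trans (by
    have := card_le4 (X := X ⊓ A.Ky u) fun x hx => A.a2 h (h2 x hx.1) (h1 x hx.1) hx.2
    omega)

theorem le16 (h : F1 Y t u) (h2 : ∀ x ∈ X, x * x = 1) (ht : ∀ x ∈ X, x * t = t * x)
    (hu : ∀ x ∈ X, x * u = u * x) : Nat.card X ≤ 16 :=
  (A.half h.it.1 ht).trans (by
    have := A.le8 (X := X ⊓ A.Ky t) h (fun x hx => h2 x hx.1) (fun x hx => hx.2)
      fun x hx => hu x hx.1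
    omega)

theorem dE (hE : E16 E) (hx : x ∈ E) (hy : y ∈ E) : Y x y ∨ N x y :=
  A.di (hE.1 y hy) (hE.comm hx hy)

theorem pat (hE : E16 E) (h : F1 Y t u) (ht : t ∈ E) (hu : u ∈ E) : ∃ σ ∈ E, Y σ t ∧ N σ u := by
  by_contra! c
  have h1 := A.half (X := E) h.it.1 fun x hx => hE.comm hx ht
  have h2 := card_le4 (X := E ⊓ A.Ky t) fun x hx => A.a2 h (hE.1 x hx.1) hx.2
    ((A.dE hE hx.1 hu).resolve_right (c x hx.1 hx.2))
  have := hE.2
  omega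

theorem exF (hE : E16 E) (ht : t ∈ E) (t1 : t ≠ 1) : ∃ u ∈ E, F1 Y t u := by
  by_contra! c
  have h1 := A.half (X := E) (hE.1 t ht) fun x hx => hE.comm hx ht
  have h2 := card_le4 (X := E ⊓ A.Ky t) (t := t) (u := t) fun x hx => by
    by_contra! d
    simp only [B4, not_or] at d
    exact c x hx.1 ⟨⟨hE.1 t ht, t1⟩, ⟨hE.1 x hx.1, d.1⟩, Ne.symm d.2.1, A.ys hx.2⟩
  have := hE.2
  omega

theorem exN (hE : E16 E) (ht : t ∈ E) (t1 : t ≠ 1) : ∃ s ∈ E, N s t :=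
  let ⟨_, hu, h⟩ := A.exF hE ht t1
  let ⟨s, hs, e⟩ := A.pat hE (A.fs h) hu ht
  ⟨s, hs, e.2⟩

theorem n1 (h : N s t) : t ≠ 1 := by
  rintro rfl
  exact A.nb (A.ys (A.y1 s)) h

theorem cenN (hE : E16 E) (hs : s ∈ E) (ht : t ∈ E) (h : N s t) (h1 : g * s = s * g)
    (h2 : g * t = t * g) : g ∈ E := by
  obtain ⟨u, hu, f⟩ := A.exF hE ht (A.n1 h)
  have k : ∀ x ∈ Cen s ⊓ Cen t, x * x = 1 := fun x hx =>
    A.a1 (hE.1 s hs) (hE.1 t ht) h (mem_Cen.1 hx.1).symm (mem_Cen.1 hx.2).symm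
  have le : E ≤ Cen s ⊓ Cen t := fun x hx => ⟨mem_Cen.2 (hE.comm hs hx), mem_Cen.2 (hE.comm ht hx)⟩
  rw [eq_of_le_of_card_ge le (hE.2 ▸ A.le16 f k (fun x hx => (mem_Cen.1 hx.2).symm) fun x hx =>
    comm_of_sq (k x hx) f.iu.1 (k _ (mul_mem hx (le hu))))]
  exact ⟨mem_Cen.2 h1.symm, mem_Cen.2 h2.symm⟩

theorem cenE (hE : E16 E) (h : ∀ x ∈ E, g * x = x * g) : g ∈ E := by
  have : Nontrivial E := Finite.one_lt_card_iff_nontrivial.1 (by rw [hE.2]; omega)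
  obtain ⟨⟨t, ht⟩, t1⟩ := exists_ne (1 : E)
  obtain ⟨s, hs, e⟩ := A.exN hE ht fun e => t1 (Subtype.ext e)
  exact A.cenN hE hs ht e (h s hs) (h t ht)

theorem dec (hE : E16 E) (h : F1 Y t u) (ht : t ∈ E) (hu : u ∈ E) (h1 : g * t = t * g)
    (h2 : g * u = u * g) : ∃ e ∈ E, Y (g * e) t ∧ Y (g * e) u := by
  obtain ⟨σ, a, b, c⟩ := A.pat hE h ht hu
  obtain ⟨τ, a', b', c'⟩ := A.pat hE (A.fs h) hu ht
  rcases A.di h.it.1 h1 with d | d <;> rcases A.di h.iu.1 h2 with d' | d'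
  · exact ⟨1, one_mem _, by rwa [mul_one], by rwa [mul_one]⟩
  · exact ⟨σ, a, A.yy d b, A.nn d' c⟩
  · exact ⟨τ, a', A.nn d c', A.yy d' b'⟩
  · exact ⟨σ * τ, mul_mem a a', A.nn d (A.yn b c'), A.nn d' (A.ny c b')⟩

theorem inv2 (h : F1 Y t u) (h1 : Y a t) (h2 : Y a u) (s2 : σ * σ = 1) (s1 : Y σ t) (s3 : N σ u) :
    σ * (a * a) * σ = (a * a)⁻¹ := by
  have c := A.yc h1
  rcases A.a4 h (A.yy s1 h1) (A.ny s3 h2) with e | e
  · have : σ * a * σ = a⁻¹ := eq_inv_of_mul_eq_one_left (by rw [← e]; group)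
    rw [mul_inv_rev, ← this]; simp only [mul_assoc, sq_cancel s2]
  · have : σ * a * σ = t * a⁻¹ := by rw [← e]; group
    calc σ * (a * a) * σ = σ * a * σ * (σ * a * σ) := by simp only [mul_assoc, sq_cancel s2]
      _ = _ := by
        rw [this, sq_mul ((show Commute a t from c).inv_left.eq.symm), h.it.1]; group

theorem sqA (hE : E16 E) (h : F1 Y t u) (ht : t ∈ E) (hu : u ∈ E) (h1 : Y a t) (h2 : Y a u) :
    B4 t u (a * a) := by
  obtain ⟨σ, s0, s1, s2⟩ := A.pat hE h ht hu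
  obtain ⟨τ, t0, t1, t2⟩ := A.pat hE (A.fs h) hu ht
  have e1 := A.inv2 h h1 h2 (hE.1 _ s0) s1 s2
  have e2 := A.inv2 (A.fs h) h2 h1 (hE.1 _ t0) t1 t2
  have e3 := A.inv2 (A.fm' h) (A.yy' h1 h2) h2 (hE.1 _ (mul_mem s0 t0))
    (A.nn' (A.yn s1 t2) (A.ny s2 t1)) (A.ny s2 t1)
  refine A.a2 h ?_ (A.yy h1 h1) (A.yy h2 h2)
  generalize a * a = b at *
  have : σ * τ * b * (σ * τ) = b := by
    calc _ = σ * (τ * b * τ) * σ := by rw [hE.comm s0 t0]; simp only [mul_assoc, ← hE.comm s0 t0]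
      _ = (σ * b * σ)⁻¹ := by rw [e2]; simp only [mul_inv_rev, inv_of_sq (hE.1 _ s0), mul_assoc]
      _ = b := by rw [e1, inv_inv]
  rw [this] at e3
  exact mul_eq_one_iff_eq_inv.2 e3

theorem nrm1 (hE : E16 E) (h : F1 Y t u) (ht : t ∈ E) (hu : u ∈ E) (h1 : Y a t) (h2 : Y a u)
    (he : e ∈ E) (e1 : Y e t) (e2 : N e u) : a * e * a⁻¹ ∈ E := by
  have k : e * a⁻¹ * (e * a⁻¹) ∈ E := by
    rcases A.a4 h (A.yy e1 (A.yi h1)) (A.ny e2 (A.yi h2)) with d | d <;> rw [d]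
    exacts [one_mem _, ht]
  have k2 : a * (e * a⁻¹ * (e * a⁻¹)) * a⁻¹ = e * a⁻¹ * (e * a⁻¹) := by
    rcases A.a4 h (A.yy e1 (A.yi h1)) (A.ny e2 (A.yi h2)) with d | d <;> rw [d]
    exacts [by group, cj_of (A.yc h1)]
  have := mul_mem (mul_mem (k2 ▸ k) ((A.sqA hE h ht hu h1 h2).mem ht hu)) he
  convert this using 1
  simp only [mul_assoc, inv_mul_cancel_left]
  rw [hE.1 e he, mul_one]

theorem nrmD (hE : E16 E) (h : F1 Y t u) (ht : t ∈ E) (hu : u ∈ E) (h1 : g * t = t * g)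
    (h2 : g * u = u * g) : g ∈ normalizer (E : Set G) := by
  obtain ⟨e, he, a, b⟩ := A.dec hE h ht hu h1 h2
  refine (mul_mem_cancel_right (le_normalizer he)).1 (H3.mem_normalizer_of_conj_mem fun x hx => ?_)
  rcases A.dE hE hx ht with c | c <;> rcases A.dE hE hx hu with d | d
  · rwa [cj_of (B4.comm (A.a2 h (hE.1 x hx) c d) (A.yc a) (A.yc b))]
  · exact A.nrm1 hE h ht hu a b hx c d
  · exact A.nrm1 hE (A.fs h) hu ht b a hx d c
  · exact A.nrm1 hE (A.fm' h) (mul_mem ht hu) hu (A.yy' a b) b hx (A.nn' c d) d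

end Ax

end Cfsg.Agent.LD.F4
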