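import Cfsg.Agent.LD.F4.R1

/-! Rank four: outer involutions, normalisers. -/

set_option autoImplicit false
set_option linter.unusedVariables false
set_option linter.unusedSectionVars false

namespace Cfsg.Agent.LD.F4

open Subgroup Cfsg.Agent.H8.M3 Cfsg.Agent.H7.BD Cfsg.Agent.H3.ZD Cfsg.Agent.H3

universe u

variable {G : Type u} [Group G] [Finite G] {Y N : G → G → Prop}
  {a b e g m n r s t u v w x y σ τ r' u' v' : G} {E E' T X : Subgroup G}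

/-- `v` is an involution outside `E` centralising `⟨r, u⟩`, with radical `r` -/
structure Ot (Y N : G → G → Prop) (E : Subgroup G) (r u v : G) : Prop where
  hE : E16 E
  f : F1 Y r u
  r0 : r ∈ E
  u0 : u ∈ E
  v2 : v * v = 1
  v0 : v ∉ E
  yr : Y v r
  nu : N v u

namespace Ax

variable (A : Ax G Y N)
include A

theorem o_nrm (h : Ot Y N E r u v) : v ∈ normalizer (E : Set G) :=
  A.nrmD h.hE h.f h.r0 h.u0 (A.yc h.yr) (A.nc h.nu)

theorem o_cen (h : Ot Y N E r u v) (hx : x ∈ E) (c : v * x = x * v) : B4 r u x := by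
  rcases A.dE h.hE hx h.r0 with a | a
  · rcases A.dE h.hE hx h.u0 with b | b
    · exact A.a2 h.f (h.hE.1 x hx) a b
    · exact absurd (A.cenN h.hE hx h.u0 b c (A.nc h.nu)) h.v0
  · exact absurd (A.cenN h.hE hx h.r0 a c (A.yc h.yr)) h.v0

theorem o_rad (h : Ot Y N E r u v) (hx : x ∈ E) (c : Y v x) : x = 1 ∨ x = r := by
  rcases A.o_cen h hx (A.yc c) with e | e | rfl | rfl
  exacts [Or.inl e, Or.inr e, (A.nb c h.nu).elim, (A.nb c (A.yn' h.yr h.nu)).elim]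

theorem o_cj (h : Ot Y N E r u v) (hg : g ∈ normalizer (E : Set G)) :
    Ot Y N E (g * r * g⁻¹) (g * u * g⁻¹) (g * v * g⁻¹) :=
  ⟨h.hE, A.fj h.f g, nm hg h.r0, nm hg h.u0, cj_sq h.v2 g, fun e => h.v0 (nm' hg e), A.yj g h.yr,
    A.nj g h.nu⟩

theorem o_cj' (h : Ot Y N E r u v) (g : G) :
    Ot Y N (cj g E) (g * r * g⁻¹) (g * u * g⁻¹) (g * v * g⁻¹) :=
  ⟨h.hE.cj g, A.fj h.f g, cj_mem.2 h.r0, cj_mem.2 h.u0, cj_sq h.v2 g, fun e => h.v0 (cj_mem.1 e),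
    A.yj g h.yr, A.nj g h.nu⟩

theorem o_pat (hE : E16 E) (h : F1 Y t u) (ht : t ∈ E) (hu : u ∈ E) (v2 : v * v = 1) (v0 : v ∉ E)
    (h1 : v * t = t * v) (h2 : v * u = u * v) :
    Ot Y N E t u v ∨ Ot Y N E u t v ∨ Ot Y N E (t * u) u v := by
  rcases A.di h.it.1 h1 with c | c <;> rcases A.di h.iu.1 h2 with d | d
  · exact absurd (B4.mem (A.a2 h v2 c d) ht hu) v0
  · exact Or.inl ⟨hE, h, ht, hu, v2, v0, c, d⟩
  · exact Or.inr (Or.inl ⟨hE, A.fs h, hu, ht, v2, v0, d, c⟩)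
  · exact Or.inr (Or.inr ⟨hE, A.fm' h, mul_mem ht hu, hu, v2, v0, A.nn' c d, d⟩)

theorem o_cen' (hE : E16 E) (h : F1 Y t u) (ht : t ∈ E) (hu : u ∈ E) (v2 : v * v = 1) (v0 : v ∉ E)
    (h1 : v * t = t * v) (h2 : v * u = u * v) (hx : x ∈ E) (c : v * x = x * v) : B4 t u x := by
  rcases A.o_pat hE h ht hu v2 v0 h1 h2 with o | o | o
  exacts [A.o_cen o hx c, (A.bs h).1 (A.o_cen o hx c), (A.bm' h).1 (A.o_cen o hx c)]

theorem sq_t (hE : E16 E) (h : F1 Y t u) (ht : t ∈ E) (hu : u ∈ E) (h1 : Y a t) (h2 : Y a u)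
    (e : a * a = u) (s0 : σ ∈ E) (s1 : Y σ t) (s2 : N σ u) : σ * a * (σ * a) ≠ 1 := fun c => by
  obtain ⟨τ, t0, t1, t2⟩ := A.pat hE (A.fs h) hu ht
  have c' := (A.a5 (A.fs h) h2 h1 e t1 t2).trans (hE.1 _ t0)
  have k : ∀ {x}, x ∈ E → x * a * (x * a) = 1 → x * a = a⁻¹ * x := fun {x} hx d => by
    rw [eq_inv_of_mul_eq_one_left d, mul_inv_rev, inv_of_sq (hE.1 x hx)]
  have k2 : σ * τ * a = a * (σ * τ) := by
    have := k s0 c
    rw [mul_assoc, k t0 c', ← mul_assoc, ← mul_assoc]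
    congr 1
    rw [mul_inv_eq_iff_eq_mul, mul_assoc, this, mul_inv_cancel_left]
  have := A.a4 (A.fm' h) (A.yy (A.nn' (A.yn s1 t2) (A.ny s2 t1)) (A.yy' h1 h2))
    (A.ny (A.ny s2 t1) h2)
  rw [sq_mul k2, hE.1 _ (mul_mem s0 t0), one_mul, e] at this
  exact this.elim h.iu.2 fun d => h.it.2 (right_eq_mul.1 d)

theorem o_sq (h : Ot Y N E r u v) (s0 : σ ∈ E) (s1 : Y σ r) (s2 : N σ u) : σ * v * (σ * v) = r := by
  have a1 := A.yy s1 h.yr
  have a2 := A.nn s2 h.nu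
  have k : σ * (σ * v) * (σ * (σ * v)) = 1 := by rw [sq_cancel (h.hE.1 _ s0), h.v2]
  rcases A.sqA h.hE h.f h.r0 h.u0 a1 a2 with e | e | e | e
  · exact (A.nb (A.ys (A.yB (A.o_cen h s0 (comm_of_sq (h.hE.1 _ s0) h.v2 e).symm)
      (A.ys h.f.y) (A.yr u))) s2).elim
  · exact e
  · exact (A.sq_t h.hE h.f h.r0 h.u0 a1 a2 e s0 s1 s2 k).elim
  · exact (A.sq_t h.hE (A.fm h.f) h.r0 (mul_mem h.r0 h.u0) a1 (A.yy' a1 a2) e s0 s1
      (A.yn' s1 s2) k).elim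

theorem o_two (h : Ot Y N E r u v) (h' : Ot Y N E r u v') : B4 r u (v * v') := by
  obtain ⟨σ, s0, s1, s2⟩ := A.pat h.hE h.f h.r0 h.u0
  have a1 := A.yy s1 h.yr
  have a2 := A.nn s2 h.nu
  have b1 := A.yy s1 h'.yr
  have b2 := A.nn s2 h'.nu
  have e : v * v' = (σ * v)⁻¹ * (σ * v') := by rw [mul_inv_rev, inv_of_sq h.v2]; group
  refine A.a2 h.f ?_ (A.yy h.yr h'.yr) (A.nn h.nu h'.nu)
  rw [e, sq_mul (A.yc (A.ab h.f (A.yi a1) (A.yi a2) b1 b2)), ← mul_inv_rev, A.o_sq h s0 s1 s2,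
    A.o_sq h' s0 s1 s2, inv_mul_cancel]

theorem exB (hE : E16 E) (hg : g ∈ normalizer (E : Set G)) (g0 : g ∉ E) (g2 : g * g ∈ E) :
    ∃ t ∈ E, ∃ u ∈ E, F1 Y t u ∧ g * t = t * g ∧ g * u = u * g := by
  let f : E →* E := MonoidHom.mk' (fun x => ⟨g * x * g⁻¹ * x, mul_mem (nm hg x.2) x.2⟩) fun x y =>
    Subtype.ext (by
      show g * (x * y) * g⁻¹ * (x * y) = g * x * g⁻¹ * x * (g * y * g⁻¹ * y)
      rw [mul_assoc _ (x : G), ← mul_assoc (x : G), hE.comm x.2 (nm hg y.2)]; group)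
  have k : ∀ x : E, x ∈ f.ker ↔ g * x = x * g := fun x => by
    rw [MonoidHom.mem_ker, Subtype.ext_iff]
    show g * x * g⁻¹ * x = 1 ↔ _
    rw [mul_eq_one_iff_eq_inv, inv_of_sq (hE.1 _ x.2), mul_inv_eq_iff_eq_mul]
  have le : f.range ≤ f.ker := by
    rintro _ ⟨x, rfl⟩
    refine (k _).2 (of_cj ?_)
    show g * (g * x * g⁻¹ * x) * g⁻¹ = g * x * g⁻¹ * x
    calc _ = g * g * x * (g * g)⁻¹ * (g * x * g⁻¹) := by group
      _ = _ := by rw [cj_of (hE.comm g2 x.2), hE.comm x.2 (nm hg x.2)]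
  have c1 := f.ker.card_mul_index
  rw [index_ker, hE.2] at c1
  have c2 := card_le_of_le le
  by_contra! c
  have : ∀ x ∈ f.ker, ∀ y ∈ f.ker, x ≠ 1 → y ≠ 1 → x = y := fun x hx y hy x1 y1 => by
    by_contra ne
    rcases A.dE hE x.2 y.2 with d | d
    · exact c x x.2 y y.2 ⟨⟨hE.1 _ x.2, fun e => x1 (Subtype.ext e)⟩,
        ⟨hE.1 _ y.2, fun e => y1 (Subtype.ext e)⟩, fun e => ne (Subtype.ext e), d⟩
        ((k x).1 hx) ((k y).1 hy)
    · exact g0 (A.cenN hE x.2 y.2 d ((k x).1 hx) ((k y).1 hy))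
  have c3 : Nat.card f.ker ≤ 2 * Nat.card (⊥ : Subgroup E) := by
    by_cases d : ∃ y ∈ f.ker, y ≠ 1
    · obtain ⟨y, hy, y1⟩ := d
      exact card_le_two (g := y) fun x hx => (em (x = 1)).imp id fun x1 => by
        rw [this x hx y hy x1 y1]; exact Subtype.ext (hE.1 _ y.2)
    · exact card_le_two (g := 1) fun x hx => Or.inl (by by_contra x1; exact d ⟨x, hx, x1⟩)
  rw [card_bot] at c3
  nlinarith

theorem o_of (hE : E16 E) (h : F1 Y t u) (ht : t ∈ E) (hu : u ∈ E) (h1 : Y a t) (h2 : Y a u)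
    (a0 : a ∉ E) (e : a * a = t) : ∃ σ ∈ E, Ot Y N E t u (σ * a) :=
  let ⟨σ, s0, s1, s2⟩ := A.pat hE h ht hu
  ⟨σ, s0, hE, h, ht, hu, (A.a5 h h1 h2 e s1 s2).trans (hE.1 _ s0),
    fun c => a0 ((mul_mem_cancel_left s0).1 c), A.yy s1 h1, A.ny s2 h2⟩

theorem o_D (hE : E16 E) (h : F1 Y t u) (ht : t ∈ E) (hu : u ∈ E) (g0 : g ∉ E) (h1 : g * t = t * g)
    (h2 : g * u = u * g) : ∃ e ∈ E, g * e * (g * e) = 1 := by
  obtain ⟨e, he, a, b⟩ := A.dec hE h ht hu h1 h2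
  have a0 : g * e ∉ E := fun c => g0 ((mul_mem_cancel_right he).1 c)
  have k : (∃ σ ∈ E, σ * (g * e) * (σ * (g * e)) = 1) → ∃ e ∈ E, g * e * (g * e) = 1 :=
    fun ⟨σ, s0, c⟩ => ⟨e * σ, mul_mem he s0, by simpa [mul_assoc] using cj_sq c σ⁻¹⟩
  rcases A.sqA hE h ht hu a b with c | c | c | c
  · exact ⟨e, he, c⟩
  · exact k ((A.o_of hE h ht hu a b a0 c).imp fun _ c => ⟨c.1, c.2.v2⟩)
  · exact k ((A.o_of hE (A.fs h) hu ht b a a0 c).imp fun _ c => ⟨c.1, c.2.v2⟩)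
  · exact k ((A.o_of hE (A.fm' h) (mul_mem ht hu) hu (A.yy' a b) b a0 c).imp
      fun _ c => ⟨c.1, c.2.v2⟩)

theorem o_inv (hE : E16 E) (hg : v ∈ normalizer (E : Set G)) (v0 : v ∉ E) (v2 : v * v = 1) :
    ∃ r u, Ot Y N E r u v := by
  obtain ⟨t, ht, u, hu, h, h1, h2⟩ := A.exB hE hg v0 (v2 ▸ one_mem _)
  rcases A.o_pat hE h ht hu v2 v0 h1 h2 with o | o | o <;> exact ⟨_, _, o⟩

theorem o_coset (hE : E16 E) (hg : g ∈ normalizer (E : Set G)) (g0 : g ∉ E) (g2 : g * g ∈ E) :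
    ∃ e ∈ E, ∃ r u, Ot Y N E r u (g * e) := by
  obtain ⟨t, ht, u, hu, h, h1, h2⟩ := A.exB hE hg g0 g2
  obtain ⟨e, he, c⟩ := A.o_D hE h ht hu g0 h1 h2
  exact ⟨e, he, A.o_inv hE (mul_mem hg (le_normalizer he))
    (fun d => g0 ((mul_mem_cancel_right he).1 d)) c⟩

theorem o_uniq (h : Ot Y N E r u v) (h' : Ot Y N E r' u' v') (e : v * v' ∈ E) : r' = r := by
  have c : v * (v * v') = v * v' * v :=
    comm_of_sq h.v2 (h.hE.1 _ e) (by rw [sq_cancel h.v2, h'.v2])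
  have : Y v' r := by
    simpa [sq_cancel h.v2] using A.yy h.yr (A.ys (A.yB (A.o_cen h e c) (A.yr r) h.f.y))
  exact ((A.o_rad h' h.r0 this).resolve_left h.f.it.2).symm

theorem o_fix (h : Ot Y N E r u v) (hm : m ∈ normalizer (E : Set G))
    (e : v * (m * v * m⁻¹) ∈ E) : m * r = r * m := of_cj (A.o_uniq h (A.o_cj h hm) e)

theorem o_com (h : Ot Y N E r u v) (hx : x ∈ E) : B4 r u (x * v * (x * v)) := by
  have k : v * x * v ∈ E := by simpa [inv_of_sq h.v2] using nm (A.o_nrm h) hx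
  refine A.o_cen h (by simpa [mul_assoc] using mul_mem hx k) ?_
  calc v * (x * v * (x * v)) = v * x * v * x * v := by group
    _ = x * (v * x * v) * v := by rw [h.hE.comm k hx]
    _ = _ := by group

theorem o_com' (h : Ot Y N E r u v) (hx : x ∈ E) (c : N x r) :
    x * v * (x * v) = u ∨ x * v * (x * v) = r * u := by
  have k : ∀ {x}, x ∈ E → N x r → x * v * (x * v) ≠ 1 := fun {x} hx c d =>
    A.nb (A.ys (A.yB (A.o_cen h hx (comm_of_sq (h.hE.1 _ hx) h.v2 d).symm) (A.yr r) h.f.y)) c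
  rcases A.o_com h hx with e | e | e | e
  · exact absurd e (k hx c)
  · obtain ⟨σ, s0, s1, s2⟩ := A.pat h.hE h.f h.r0 h.u0
    refine absurd ?_ (k (mul_mem s0 hx) (A.yn s1 c))
    have k : v * x * v ∈ E := by simpa [inv_of_sq h.v2] using nm (A.o_nrm h) hx
    have k' : v * σ * v ∈ E := by simpa [inv_of_sq h.v2] using nm (A.o_nrm h) s0
    calc σ * x * v * (σ * x * v) = σ * (x * (v * σ * v)) * (v * x * v) := by
          simp only [mul_assoc, sq_cancel h.v2]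
      _ = σ * v * (σ * v) * (x * v * (x * v)) := by rw [h.hE.comm hx k']; simp only [mul_assoc]
      _ = 1 := by rw [e, A.o_sq h s0 s1 s2, h.f.it.1]
  exacts [Or.inl e, Or.inr e]

theorem two (hE : E16 E) (hE' : E16 E') (ne : E ≠ E') (h : F1 Y t u) (ht : t ∈ E) (hu : u ∈ E)
    (ht' : t ∈ E') (hu' : u ∈ E') (hx : x ∈ E') (x1 : Y x t) (x2 : N x u) : x ∉ E := fun x0 => by
  obtain ⟨τ, t0, t1, t2⟩ := A.pat hE' (A.fs h) hu' ht'
  by_cases c : τ ∈ E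
  · refine ne (hE'.eq hE fun y hy => ?_).symm
    have k : ∀ z ∈ E', z ∈ E → Y (y * z) t → Y (y * z) u → y ∈ E := fun z hz z0 a b =>
      (mul_mem_cancel_right z0).1 (B4.mem (A.a2 h (hE'.1 _ (mul_mem hy hz)) a b) ht hu)
    rcases A.dE hE' hy ht' with a | a <;> rcases A.dE hE' hy hu' with b | b
    · exact B4.mem (A.a2 h (hE'.1 _ hy) a b) ht hu
    · exact k x hx x0 (A.yy a x1) (A.nn b x2)
    · exact k τ t0 c (A.nn a t2) (A.yy b t1)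
    · exact k (x * τ) (mul_mem hx t0) (mul_mem x0 c) (A.nn a (A.yn x1 t2)) (A.nn b (A.ny x2 t1))
  · exact A.nb (A.ys (A.yB (A.o_cen ⟨hE, A.fs h, hu, ht, hE'.1 _ t0, c, t1, t2⟩ x0
      (hE'.comm t0 hx)) (A.yr u) (A.ys h.y))) x2

theorem two_inf (hE : E16 E) (hE' : E16 E') (ne : E ≠ E') (h : F1 Y t u) (ht : t ∈ E) (hu : u ∈ E)
    (ht' : t ∈ E') (hu' : u ∈ E') (hx : x ∈ E) (hx' : x ∈ E') : B4 t u x := by
  rcases A.dE hE hx ht with a | a <;> rcases A.dE hE hx hu with b | b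
  · exact A.a2 h (hE.1 _ hx) a b
  · exact absurd hx (A.two hE hE' ne h ht hu ht' hu' hx' a b)
  · exact absurd hx (A.two hE hE' ne (A.fs h) hu ht hu' ht' hx' b a)
  · exact absurd hx (A.two hE hE' ne (A.fm' h) (mul_mem ht hu) hu (mul_mem ht' hu') hu' hx'
      (A.nn' a b) b)

theorem two_ot (hE : E16 E) (hE' : E16 E') (ne : E ≠ E') (h : F1 Y t u) (ht : t ∈ E) (hu : u ∈ E)
    (ht' : t ∈ E') (hu' : u ∈ E') : ∃ v ∈ E', Ot Y N E t u v :=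
  let ⟨v, v0, v1, v2⟩ := A.pat hE' h ht' hu'
  ⟨v, v0, hE, h, ht, hu, hE'.1 _ v0, A.two hE hE' ne h ht hu ht' hu' v0 v1 v2, v1, v2⟩

theorem cover1 (hE' : E16 E') (ne : E ≠ E') (h : Ot Y N E t u v) (ht' : t ∈ E') (hu' : u ∈ E') :
    v ∈ E' :=
  let ⟨_, a, b⟩ := A.two_ot h.hE hE' ne h.f h.r0 h.u0 ht' hu'
  (mul_mem_cancel_right a).1 ((A.o_two h b).mem ht' hu')

theorem cover (hE : E16 E) (hE' : E16 E') (ne : E ≠ E') (h : F1 Y t u) (ht : t ∈ E) (hu : u ∈ E)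
    (ht' : t ∈ E') (hu' : u ∈ E') (v2 : v * v = 1) (h1 : v * t = t * v) (h2 : v * u = u * v) :
    v ∈ E ∨ v ∈ E' := by
  refine or_iff_not_imp_left.2 fun v0 => ?_
  rcases A.o_pat hE h ht hu v2 v0 h1 h2 with o | o | o
  exacts [A.cover1 hE' ne o ht' hu', A.cover1 hE' ne o hu' ht',
    A.cover1 hE' ne o (mul_mem ht' hu') hu']

end Ax

end Cfsg.Agent.LD.F4
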