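import Cfsg.Agent.LD.F4.R2

/-! Rank four: Sylow subgroups and centralisers. -/

set_option autoImplicit false
set_option linter.unusedVariables false
set_option linter.unusedSectionVars false

namespace Cfsg.Agent.LD.F4

open Subgroup Cfsg.Agent.H8.M3 Cfsg.Agent.H7.BD Cfsg.Agent.H3.ZD Cfsg.Agent.H3

universe u

variable {G : Type u} [Group G] [Finite G] {Y N : G → G → Prop}
  {a b e g m n r s t u v w x y σ τ r' u' v' : G} {E E' T X R : Subgroup G}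

theorem cyc3 (h1 : n * a * n⁻¹ = b) (h2 : n * b * n⁻¹ = e) (h3 : n * e * n⁻¹ = a) :
    n * n * n * a = a * (n * n * n) := of_cj (by
  calc _ = n * (n * (n * a * n⁻¹) * n⁻¹) * n⁻¹ := by group
    _ = a := by rw [h1, h2, h3])

/-- the action of `n` on a normalised four-group -/
theorem act6 (tu : t * u = u * t) (t2 : t * t = 1) (u2 : u * u = 1) (t1 : t ≠ 1) (u1 : u ≠ 1)
    (ne : t ≠ u) (h1 : B4 t u (n * t * n⁻¹)) (h2 : B4 t u (n * u * n⁻¹)) :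
    (n * t * n⁻¹ = t ∧ n * u * n⁻¹ = u) ∨ (n * t * n⁻¹ = t ∧ n * u * n⁻¹ = t * u) ∨
    (n * u * n⁻¹ = u ∧ n * t * n⁻¹ = u * t) ∨
    (n * (t * u) * n⁻¹ = t * u ∧ n * u * n⁻¹ = t * u * u) ∨
    (n * t * n⁻¹ = u ∧ n * u * n⁻¹ = t * u ∧ n * (t * u) * n⁻¹ = t) ∨
    (n * u * n⁻¹ = t ∧ n * t * n⁻¹ = t * u ∧ n * (t * u) * n⁻¹ = u) := by
  have ne' : n * t * n⁻¹ ≠ n * u * n⁻¹ := fun e => ne (by simpa using e)
  have k : n * (t * u) * n⁻¹ = n * t * n⁻¹ * (n * u * n⁻¹) := conj_mul.symm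
  have k1 : t * u * u = t := by rw [mul_assoc, u2, mul_one]
  have k2 : t * u * t = u := by rw [tu, mul_assoc, t2, mul_one]
  have k3 : u * (t * u) = t := by rw [tu, sq_cancel u2]
  rcases h1 with h1 | h1 | h1 | h1
  · exact absurd h1 (conj_ne_one t1)
  all_goals rcases h2 with h2 | h2 | h2 | h2
  all_goals first
    | exact absurd h2 (conj_ne_one u1)
    | exact absurd (h1.trans h2.symm) ne'
    | simp only [k, h1, h2, k1, k2, k3, ← tu, true_and, and_self, true_or, or_true]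

theorem dih (ha : a ∈ X) (hb : b ∈ X) (a2 : a * a = 1) (b2 : b * b = 1) :
    (∃ m ∈ X, m * a * m⁻¹ = b) ∨ ∃ i ∈ X, i ≠ 1 ∧ i * i = 1 ∧ a * i = i * a ∧ b * i = i * b := by
  by_cases h : Odd (orderOf (a * b))
  · obtain ⟨r, hr, -, -, -, -, -, e⟩ := conj_of_odd X ha hb a2 b2 h
    exact Or.inl ⟨r⁻¹, inv_mem hr, by rwa [inv_inv]⟩
  · obtain ⟨i, hi, i1, i2, c1, c2, -⟩ := dih2 a2 b2 h
    exact Or.inr ⟨i, zpowers_le.2 (mul_mem ha hb) hi, i1, i2, c1, c2⟩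

theorem mem3 (hT : IsPGroup 2 T) (hn : n ∈ T) (h : n * n * n ∈ X) : n ∈ X := by
  obtain ⟨k, hk⟩ := hT ⟨n, hn⟩
  refine H7.BD.H3.mem_of_pow (n := 3) (Nat.Coprime.coprime_dvd_right
    (orderOf_dvd_of_pow_eq_one (congrArg Subtype.val hk)) ((by decide : Nat.Coprime 3 2).pow_right k)) ?_
  rwa [pow_three']

namespace Ax

variable (A : Ax G Y N)
include A

theorem swp (hE : E16 E) (hE' : E16 E') (ne : E ≠ E') (h : F1 Y t u) (ht : t ∈ E) (hu : u ∈ E)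
    (ht' : t ∈ E') (hu' : u ∈ E') (s1 : ∀ x ∈ E, n * x * n⁻¹ ∈ E') (s2 : ∀ x ∈ E', n * x * n⁻¹ ∈ E)
    (h1 : n * t * n⁻¹ = t) (h2 : n * u * n⁻¹ = t * u) : False := by
  have key : ∀ n, (∀ x ∈ E, n * x * n⁻¹ ∈ E') → (∀ x ∈ E', n * x * n⁻¹ ∈ E) → N n t →
      n * u * n⁻¹ = t * u → False := fun n s1 s2 c h2 => by
    have d := A.sq h c h2
    have e : n * (n * n) * n⁻¹ = n * n := by group
    have : n * n ∈ E ∧ n * n ∈ E' := by
      rcases A.cover hE hE' ne h ht hu ht' hu' (A.a3 h.it.1 c).1 (A.yc (A.nn c c)) (A.nc d) with f | f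
      exacts [⟨f, e ▸ s1 _ f⟩, ⟨e ▸ s2 _ f, f⟩]
    exact A.nb (A.ys (A.yB (A.two_inf hE hE' ne h ht hu ht' hu' this.1 this.2) (A.ys h.y)
      (A.yr u))) d
  rcases A.di h.it.1 (of_cj h1) with c | c
  · obtain ⟨σ, s0, a, b⟩ := A.pat hE (A.fs h) hu ht
    have k := A.nrmD hE' h ht' hu' (A.nc b) (A.yc a)
    have e : ∀ x, n * σ * x * (n * σ)⁻¹ = n * (σ * x * σ⁻¹) * n⁻¹ := fun x => by group
    refine key (n * σ) (fun x hx => e x ▸ s1 _ (nm (le_normalizer s0) hx))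
      (fun x hx => e x ▸ s2 _ (nm k hx)) (A.yn c b) ?_
    rw [e, cj_of (A.yc a), h2]
  · exact key n s1 s2 c h2

theorem nrmB (hE : E16 E) (h : F1 Y t u) (ht : t ∈ E) (hu : u ∈ E) (h1 : B4 t u (n * t * n⁻¹))
    (h2 : B4 t u (n * u * n⁻¹)) : n ∈ normalizer (E : Set G) := by
  by_contra c
  have hc := act6 (A.fc h) h.it.1 h.iu.1 h.it.2 h.iu.2 h.ne h1 h2
  have cl : ∀ F : Subgroup G, t ∈ F → u ∈ F → t ∈ cj n F ∧ u ∈ cj n F := fun F a b => by
    have k : ∀ {x y}, x ∈ F → n * x * n⁻¹ = y → y ∈ cj n F := fun hx e => e ▸ cj_mem.2 hx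
    have k1 : t * u * u = t := by rw [mul_assoc, h.iu.1, mul_one]
    rcases hc with ⟨d, e⟩ | ⟨d, e⟩ | ⟨d, e⟩ | ⟨d, e⟩ | ⟨d, -, e⟩ | ⟨d, -, e⟩
    · exact ⟨k a d, k b e⟩
    · exact ⟨k a d, (mul_mem_cancel_left (k a d)).1 (k b e)⟩
    · exact ⟨(mul_mem_cancel_left (k b d)).1 (k a e), k b d⟩
    · exact ⟨k b (e.trans k1), (mul_mem_cancel_left (k b (e.trans k1))).1 (k (mul_mem a b) d)⟩
    · exact ⟨k (mul_mem a b) e, k a d⟩
    · exact ⟨k b d, k (mul_mem a b) e⟩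
  have ne : E ≠ cj n E := fun e => c (cj_eq e.symm)
  obtain ⟨ht', hu'⟩ := cl E ht hu
  obtain ⟨ht'', hu''⟩ := cl _ ht' hu'
  have hE' := hE.cj n
  have e2 : cj n (cj n E) = E := by
    by_contra ne2
    have ne3 : cj n E ≠ cj n (cj n E) := fun e => ne (by
      ext x
      have := congrArg (fun F : Subgroup G => n * x * n⁻¹ ∈ F) e
      simpa only [cj_mem, eq_iff_iff] using this)
    obtain ⟨v, a, b⟩ := A.two_ot hE (hE'.cj n) (Ne.symm ne2) h ht hu ht'' hu''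
    exact A.two hE' (hE'.cj n) ne3 h ht' hu' ht'' hu'' a b.yr b.nu (A.cover1 hE' ne b ht' hu')
  have s1 : ∀ x ∈ E, n * x * n⁻¹ ∈ cj n E := fun x hx => cj_mem.2 hx
  have s2 : ∀ x ∈ cj n E, n * x * n⁻¹ ∈ E := fun x hx => e2 ▸ cj_mem.2 hx
  have k3 : n * n * n ∈ normalizer (E : Set G) → False := fun d => by
    refine c ((mul_mem_cancel_left (mem_normalizer_of_conj_mem fun x hx => ?_)).1 d)
    simpa [mul_assoc] using s2 _ (s1 x hx)
  rcases hc with ⟨d, e⟩ | ⟨d, e⟩ | ⟨d, e⟩ | ⟨d, e⟩ | ⟨d, e, f⟩ | ⟨d, e, f⟩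
  · exact c (A.nrmD hE h ht hu (of_cj d) (of_cj e))
  · exact A.swp hE hE' ne h ht hu ht' hu' s1 s2 d e
  · exact A.swp hE hE' ne (A.fs h) hu ht hu' ht' s1 s2 d e
  · exact A.swp hE hE' ne (A.fm' h) (mul_mem ht hu) hu (mul_mem ht' hu') hu' s1 s2 d e
  · exact k3 (A.nrmD hE h ht hu (cyc3 d e f) (cyc3 e f d))
  · exact k3 (A.nrmD hE h ht hu (cyc3 e f d) (cyc3 d e f))

theorem norm2 (hE : E16 E) (hT : IsPGroup 2 T) (le : E ≤ T) : T ≤ normalizer (E : Set G) := by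
  by_contra c
  obtain ⟨n, n0, n1, n2, n3⟩ := lt_norm_sq (X := T ⊓ normalizer (E : Set G)) hT
    (lt_of_le_not_ge inf_le_left fun d => c (d.trans inf_le_right))
  have lq : E ≤ T ⊓ normalizer (E : Set G) := le_inf le le_normalizer
  have n4 : n ∉ normalizer (E : Set G) := fun d => n2 ⟨n0, d⟩
  have hE' := hE.cj n
  have l1 : ∀ x ∈ cj n E, x ∈ normalizer (E : Set G) := fun x hx => by
    simpa [mul_assoc] using (nm n1 (lq (mem_cj.1 hx))).2
  have l2 : ∀ q ∈ E, ∀ x ∈ cj n E, q * x * q⁻¹ ∈ cj n E := fun q hq x hx => mem_cj.2 (by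
    simpa [mul_assoc] using nm (nm (inv_mem n1) (lq hq)).2 (mem_cj.1 hx))
  obtain ⟨g, g1, g0⟩ : ∃ g ∈ cj n E, g ∉ E := by
    by_contra! d
    exact n4 (cj_eq (hE'.eq hE d))
  obtain ⟨r, u, o⟩ := A.o_inv hE (l1 g g1) g0 (hE'.1 g g1)
  have k : ∀ x ∈ E, x * g * (x * g) ∈ cj n E := fun x hx => by
    simpa [mul_assoc, inv_of_sq (hE.1 x hx)] using mul_mem (l2 x hx g g1) g1
  obtain ⟨σ, s0, s1, s2⟩ := A.pat hE o.f o.r0 o.u0
  have r1 : r ∈ cj n E := A.o_sq o s0 s1 s2 ▸ k σ s0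
  obtain ⟨τ, t0, t1⟩ := A.exN hE o.r0 o.f.it.2
  have u1 : u ∈ cj n E := by
    rcases A.o_com' o t0 t1 with e | e
    exacts [e ▸ k τ t0, (mul_mem_cancel_left r1).1 (e ▸ k τ t0)]
  have b : ∀ x ∈ E, x ∈ cj n E → B4 r u (n * x * n⁻¹) := fun x hx hx' =>
    A.o_cen o (by simpa [mul_assoc] using nm n3.2 (mem_cj.1 hx')) (hE'.comm g1 (cj_mem.2 hx))
  exact n4 (A.nrmB hE o.f o.r0 o.u0 (b r o.r0 r1) (b u o.u0 u1))

theorem odd3 (hE : E16 E) (hg : g ∈ normalizer (E : Set G)) (ht : t ∈ E) (t1 : t ≠ 1)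
    (c : g * t = t * g) {k : ℕ} (hk : Odd k) (e : g ^ k ∈ E) : g ∈ E := by
  obtain ⟨s, hs, h⟩ := A.exN hE ht t1
  let p : ℕ → G := fun j => Nat.rec 1 (fun _ q => s * (g * q * g⁻¹)) j
  have p1 : ∀ j, p (j + 1) = s * (g * p j * g⁻¹) := fun j => rfl
  have p2 : ∀ j, p (j + 1) = p j * (g ^ j * s * (g ^ j)⁻¹) := fun j => by
    induction j with
    | zero => simp [p]
    | succ j ih => rw [p1 (j + 1)]; conv_lhs => rw [ih]
                   rw [p1 j]; group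
  have p3 : ∀ j, p j ∈ E := fun j => by
    induction j with
    | zero => exact one_mem _
    | succ j ih => exact mul_mem hs (nm hg ih)
  have p4 : ∀ j, Y (p (2 * j)) t ∧ N (p (2 * j + 1)) t := fun j => by
    induction j with
    | zero => exact ⟨A.y1 t, A.ny h (A.yj' (A.y1 t) c)⟩
    | succ j ih =>
      have := A.nn h (A.nj' ih.2 c)
      exact ⟨this, A.ny h (A.yj' this c)⟩
  obtain ⟨j, rfl⟩ := hk
  refine A.cenN hE (p3 (2 * j + 1)) ht (p4 j).2 (of_cj (mul_left_cancel (a := s) ?_)) c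
  calc s * (g * p (2 * j + 1) * g⁻¹) = p (2 * j + 1 + 1) := (p1 (2 * j + 1)).symm
    _ = _ := by rw [p2 (2 * j + 1), cj_of (hE.comm e hs), hE.comm hs (p3 (2 * j + 1))]

theorem pg2 (hE : E16 E) (ht : t ∈ E) (t1 : t ≠ 1) :
    IsPGroup 2 ↥(normalizer (E : Set G) ⊓ Cen t) := fun ⟨g, h1, h2⟩ => by
  obtain ⟨a, k, hk, e⟩ := Nat.exists_eq_two_pow_mul_odd (orderOf_pos g).ne'
  have := A.odd3 hE (pow_mem h1 (2 ^ a)) ht t1 (mem_Cen.1 (pow_mem h2 _)).symm hk (by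
    rw [← pow_mul, ← e, pow_orderOf_eq_one]; exact one_mem _)
  exact ⟨a + 1, Subtype.ext (by
    show g ^ 2 ^ (a + 1) = 1
    rw [pow_succ, pow_mul, pow_two, hE.1 _ this])⟩

theorem sylC (hE : E16 E) (ht : t ∈ E) (t1 : t ≠ 1) :
    SylowIn 2 (normalizer (E : Set G) ⊓ Cen t) (Cen t) :=
  sylowIn_of_max Nat.prime_two (A.pg2 hE ht t1) inf_le_right fun Z hZ h1 h2 =>
    le_inf (A.norm2 hE hZ fun x hx => h1 ⟨le_normalizer hx, mem_Cen.2 (hE.comm ht hx)⟩) h2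

theorem ext (hE : E16 E) (ht : t ∈ E) (t1 : t ≠ 1) (hR : IsPGroup 2 R) (le : R ≤ Cen x)
    (e : g * x * g⁻¹ = t) : ∃ h, h * x * h⁻¹ = t ∧ ∀ y ∈ R, h * y * h⁻¹ ∈ normalizer (E : Set G) := by
  obtain ⟨y, hy, k⟩ := (A.sylC hE ht t1).exists_conj_le Nat.prime_two (Q := cj g R)
    (hR.comap_of_injective _ (MulAut.conj g⁻¹).injective)
    fun z hz => e ▸ mem_Cen_conj g |>.2 (le (mem_cj.1 hz))
  refine ⟨y * g, ?_, fun z hz => by simpa [mul_assoc] using (k _ (cj_mem.2 hz)).1⟩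
  rw [← cj_of (mem_Cen.1 hy).symm, ← e]; group

theorem bn (hE : E16 E) (ht : t ∈ E) (t1 : t ≠ 1)
    (h : ∀ g ∈ normalizer (E : Set G), g * t = t * g → g ∈ E) : Cen t = E := by
  have : Fact (Nat.Prime 2) := ⟨Nat.prime_two⟩
  have le : E ≤ Cen t := fun x hx => mem_Cen.2 (hE.comm ht hx)
  have e : normalizer (E : Set G) ⊓ Cen t = E :=
    le_antisymm (fun g hg => h g hg.1 (mem_Cen.1 hg.2).symm) (le_inf le_normalizer le)
  have hS := A.sylC hE ht t1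
  rw [e] at hS
  let P : Sylow 2 (Cen t) := (hS.pgroup.comap_subtype (K := Cen t)).toSylow hS.not_dvd
  have hP : normalizer (P : Set (Cen t)) ≤ centralizer (P : Set (Cen t)) := fun g hg => by
    have : g.1 ∈ E := h g (mem_normalizer_of_conj_mem fun x hx =>
      (mem_normalizer_iff.1 hg ⟨x, le hx⟩).1 hx) (mem_Cen.1 g.2).symm
    exact mem_centralizer_iff.2 fun x hx => Subtype.ext (hE.comm hx this)
  have hc := MonoidHom.ker_transferSylow_isComplement' P hP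
  have ho : Odd (Nat.card (MonoidHom.transferSylow P hP).ker) := by
    rw [← hc.index_eq_card]
    exact Nat.odd_iff.2 (Nat.two_dvd_ne_zero.1 P.not_dvd_index)
  generalize hO : (MonoidHom.transferSylow P hP).ker = O at hc ho
  have : O.Normal := hO ▸ inferInstance
  have od : ∀ x ∈ O, Odd (orderOf x) := fun x hx => ho.of_dvd_nat (O.orderOf_dvd_natCard hx)
  have o1 : ∀ x ∈ O, x.1 ∈ E → x = 1 := fun x hx hx' =>
    disjoint_def.1 hc.disjoint hx hx'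
  have iv : ∀ s ∈ E, N s t → ∀ x ∈ O, s * x.1 * s = x.1⁻¹ := fun s hs c x hx => by
    let s' : Cen t := ⟨s, le hs⟩
    have s2 : s' * s' = 1 := Subtype.ext (hE.1 s hs)
    have z0 : x⁻¹ * (s' * x * s') ∈ O :=
      mul_mem (inv_mem hx) (by simpa [inv_of_sq s2] using this.conj_mem x hx s')
    obtain ⟨w, w1, w2⟩ := sqrt (od _ z0)
    have w3 := inv_zpowers s2 (by simp [inv_of_sq s2, mul_assoc, s2]) w1
    have w4 : s' * (x * w) * s' = x * w := by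
      calc _ = x * (x⁻¹ * (s' * x * s')) * (s' * w * s') := by simp [mul_assoc, sq_cancel s2]
        _ = _ := by rw [← w2, w3]; group
    have w5 := o1 _ (mul_mem hx (zpowers_le.2 z0 w1)) (A.cenN hE hs ht c (by
      have := congrArg Subtype.val w4
      conv_rhs => rw [← this]
      simp [s', ← mul_assoc, hE.1 s hs]) (mem_Cen.1 (x * w).2).symm)
    rw [eq_inv_of_mul_eq_one_left w5]
    have := congrArg (fun y : Cen t => (y : G)⁻¹) w3
    simpa [s', inv_of_sq (hE.1 s hs), mul_assoc] using this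
  obtain ⟨s, hs, c⟩ := A.exN hE ht t1
  have cn : ∀ u ∈ E, Y u t → ∀ x ∈ O, x.1 * u = u * x.1 := fun u hu d x hx => by
    have e1 := iv s hs c x hx
    have e2 := iv _ (mul_mem hs hu) (A.ny c d) x hx
    rw [← e1] at e2
    nth_rewrite 2 [hE.comm hs hu] at e2
    have e3 : u * x * u = x := by
      refine mul_left_cancel (a := s) (mul_right_cancel (b := s) ?_)
      rw [← e2]; simp only [mul_assoc]
    calc x.1 * u = u * x * u * u := by rw [e3]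
      _ = _ := by rw [mul_assoc, hE.1 u hu, mul_one]
  obtain ⟨u, hu, f⟩ := A.exF hE ht t1
  obtain ⟨σ, s0, s1, s2⟩ := A.pat hE f ht hu
  refine le_antisymm (fun g hg => ?_) le
  obtain ⟨⟨x, y⟩, e⟩ := hc.2 ⟨g, hg⟩
  have := o1 x x.2 (A.cenN hE s0 hu s2 (cn σ s0 s1 x x.2) (cn u hu (A.ys f.y) x x.2))
  simp only [this, one_mul] at e
  have e' : (y.1 : G) = g := congrArg Subtype.val e
  exact e' ▸ y.2

end Ax

end Cfsg.Agent.LD.F4
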