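import Cfsg.Agent.LD.F4.R3
import Cfsg.Agent.H1.ZD.TR

/-! Rank four: a type I four-group lies in two elementary abelian subgroups of order sixteen. -/

set_option autoImplicit false
set_option linter.unusedVariables false
set_option linter.unusedSectionVars false

namespace Cfsg.Agent.LD.F4

open Subgroup Cfsg.Agent.H8.M3 Cfsg.Agent.H7.BD Cfsg.Agent.H3.ZD Cfsg.Agent.H3

universe u

variable {G : Type u} [Group G] [Finite G] {Y N : G → G → Prop}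
  {a b e g m n r s t u v w x y σ τ r' u' v' : G} {E E' T X R : Subgroup G}

/-- a type I four-group lies in at most one elementary abelian subgroup of order sixteen -/
def UB (Y : G → G → Prop) : Prop := ∀ ⦃E E' : Subgroup G⦄ ⦃t u : G⦄, E16 E → E16 E' → F1 Y t u →
  t ∈ E → u ∈ E → t ∈ E' → u ∈ E' → E = E'

/-- two outer involutions generating a four-group modulo `E` -/
def Pr (E : Subgroup G) : Prop := ∃ v ∈ normalizer (E : Set G), ∃ w ∈ normalizer (E : Set G),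
  v * v = 1 ∧ w * w = 1 ∧ v ∉ E ∧ w ∉ E ∧ v * w * (v * w) ∈ E ∧ v * w ∉ E

theorem n15 {Q : Type*} [Group Q] (h : Nat.card Q = 15) :
    ∃ y : Q, y ≠ 1 ∧ y * y * y = 1 ∧ ∀ g, g * y * g⁻¹ = y ∨ g * y * g⁻¹ = y * y := by
  classical
  have : Fact (Nat.Prime 3) := ⟨Nat.prime_three⟩
  have : Finite Q := Nat.finite_of_card_ne_zero (by omega)
  obtain ⟨y, hy⟩ := exists_prime_orderOf_dvd_card' (G := Q) 3 (by rw [h]; decide)
  have c : Nat.card (zpowers y) = 3 := by rw [Nat.card_zpowers, hy]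
  have i : (zpowers y).index = 5 := by have := (zpowers y).card_mul_index; rw [c, h] at this; omega
  let P : Sylow 3 Q := (IsPGroup.of_card (n := 1) c).toSylow (by rw [i]; decide)
  have d : Nat.card (Sylow 3 Q) ∣ 5 := i ▸ P.card_dvd_index
  have d' := card_sylow_modEq_one 3 Q
  have : Subsingleton (Sylow 3 Q) := by
    rcases (Nat.dvd_prime Nat.prime_five).1 d with e | e
    · exact (Nat.card_eq_one_iff_unique.1 e).1
    · rw [e] at d'; exact absurd d' (by decide)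
  have y1 : y ≠ 1 := by rintro rfl; simp at hy
  refine ⟨y, y1, by rw [← pow_three', ← hy, pow_orderOf_eq_one], fun g => ?_⟩
  obtain ⟨k, hk, e⟩ := (mem_zpowers_iff_mem_range_orderOf.1
    (P.normal_of_subsingleton.conj_mem y (mem_zpowers y) g) |> Finset.mem_image.1)
  rw [hy, Finset.mem_range] at hk
  interval_cases k
  · exact absurd (e.symm.trans (pow_zero y)) (conj_ne_one y1)
  · exact Or.inl (e.symm.trans (pow_one y))
  · exact Or.inr (e.symm.trans (pow_two y))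

theorem lt' (le : X ≤ T) (x : G) (h : x ∈ T) (h' : x ∉ X) : X < T :=
  lt_of_le_of_ne le fun e => h' (e ▸ h)

theorem syl (hT : IsPGroup 2 X) : ∃ T : Subgroup G, IsPGroup 2 T ∧ Odd T.index ∧ X ≤ T := by
  obtain ⟨T, h, le⟩ := exists_sylowIn_ge Nat.prime_two hT le_top
  exact ⟨T, h.pgroup, Nat.odd_iff.2 (Nat.two_dvd_ne_zero.1 (relIndex_top_right T ▸ h.not_dvd)), le⟩

namespace Ax

variable (A : Ax G Y N)
include A

theorem nb2 (U : UB Y) (h : Ot Y N E t u v) (h' : Ot Y N E u t v') : False := by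
  obtain ⟨σ, s0, s1, s2⟩ := A.pat h.hE h.f h.r0 h.u0
  obtain ⟨τ, t0, t1, t2⟩ := A.pat h.hE h'.f h.u0 h.r0
  have a1 := A.yy s1 h.yr
  have a2 := A.nn s2 h.nu
  have b1 := A.yy t1 h'.yr
  have b2 := A.nn t2 h'.nu
  have e := A.a5 (A.fm' h.f) (A.yy' (A.yy a1 b2) (A.yy a2 b1)) (A.yy a2 b1)
    (by rw [sq_mul (A.yc (A.ab h.f a1 a2 b2 b1)), A.o_sq h s0 s1 s2, A.o_sq h' t0 t1 t2])
    (A.nn' (A.yn s1 t2) (A.ny s2 t1)) (A.ny s2 t1)
  have c := A.o_com h t0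
  have e1 : σ * τ * (σ * v * (τ * v')) = τ * v * (τ * v) * (v * v') := by
    rw [h.hE.comm s0 t0]; simp only [mul_assoc, sq_cancel (h.hE.1 _ s0), sq_cancel h.v2]
  rw [e1, h.hE.1 _ (mul_mem s0 t0), sq_mul (c.comm (A.nc (A.yn h.yr h'.nu))
    (A.nc (A.ny h.nu h'.yr))).symm, h.hE.1 _ (c.mem h.r0 h.u0), one_mul] at e
  have k2 : ∀ x ∈ Cen v ⊓ Cen u, x * x = 1 := fun x hx =>
    A.a1 h.v2 h.f.iu.1 h.nu (mem_Cen.1 hx.1).symm (mem_Cen.1 hx.2).symm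
  have mt : t ∈ Cen v ⊓ Cen u := ⟨mem_Cen.2 (A.yc h.yr), mem_Cen.2 (A.fc h.f).symm⟩
  have mu : u ∈ Cen v ⊓ Cen u := ⟨mem_Cen.2 (A.nc h.nu), mem_Cen.2 rfl⟩
  have mv : v ∈ Cen v ⊓ Cen u := ⟨mem_Cen.2 rfl, mem_Cen.2 (A.nc h.nu).symm⟩
  have mw : v' ∈ Cen v ⊓ Cen u :=
    ⟨mem_Cen.2 (comm_of_sq h.v2 h'.v2 e), mem_Cen.2 (A.yc h'.yr).symm⟩
  generalize Cen v ⊓ Cen u = C at *
  have l1 := two_card_le (lt' (X := ⊥) (T := C ⊓ A.Ky t ⊓ A.Ky u ⊓ A.Ky v)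
    bot_le t ⟨⟨⟨mt, A.yr t⟩, h.f.y⟩, A.ys h.yr⟩ h.f.it.2)
  have l2 := two_card_le (lt' (X := C ⊓ A.Ky t ⊓ A.Ky u ⊓ A.Ky v)
    inf_le_left u ⟨⟨mu, A.ys h.f.y⟩, A.yr u⟩ fun d => A.nb d.2 (A.ns h.nu))
  have l3 := two_card_le (lt' (X := C ⊓ A.Ky t ⊓ A.Ky u)
    inf_le_left v ⟨mv, h.yr⟩ fun d => A.nb d.2 h.nu)
  have l4 := two_card_le (lt' (X := C ⊓ A.Ky t) inf_le_left v' mw fun d => A.nb d.2 h'.nu)
  have l5 := A.le16 h.f k2 (fun x hx => comm_of_sq (k2 x hx) h.f.it.1 (k2 _ (mul_mem hx mt)))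
    fun x hx => comm_of_sq (k2 x hx) h.f.iu.1 (k2 _ (mul_mem hx mu))
  rw [card_bot] at l1
  exact h.v0 (U h.hE ⟨k2, by omega⟩ h.f h.r0 h.u0 mt mu ▸ mv)

theorem rad1 (U : UB Y) (h : Ot Y N E r u v) (w2 : w * w = 1) (w0 : w ∉ E) (h1 : w * r = r * w)
    (h2 : w * u = u * w) : Ot Y N E r u w := by
  rcases A.di h.f.it.1 h1 with c | c <;> rcases A.di h.f.iu.1 h2 with d | d
  · exact absurd (B4.mem (A.a2 h.f w2 c d) h.r0 h.u0) w0
  · exact ⟨h.hE, h.f, h.r0, h.u0, w2, w0, c, d⟩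
  · exact (A.nb2 U h ⟨h.hE, A.fs h.f, h.u0, h.r0, w2, w0, d, c⟩).elim
  · exact (A.nb2 U ⟨h.hE, A.fm h.f, h.r0, mul_mem h.r0 h.u0, h.v2, h.v0, h.yr, A.yn' h.yr h.nu⟩
      ⟨h.hE, A.fs (A.fm h.f), mul_mem h.r0 h.u0, h.r0, w2, w0, A.nn' c d, c⟩).elim

theorem db (U : UB Y) (h : Ot Y N E r u v) (h1 : g * r = r * g) (h2 : g * u = u * g) :
    g ∈ E ∨ v * g ∈ E := by
  refine or_iff_not_imp_left.2 fun g0 => ?_
  obtain ⟨e, he, c⟩ := A.o_D h.hE h.f h.r0 h.u0 g0 h1 h2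
  have k : ∀ {x}, x ∈ E → g * x = x * g → g * e * x = x * (g * e) := fun hx d => by
    rw [mul_assoc, h.hE.comm he hx, ← mul_assoc, d, mul_assoc]
  have := (A.o_two h (A.rad1 U h c (fun d => g0 ((mul_mem_cancel_right he).1 d)) (k h.r0 h1)
    (k h.u0 h2))).mem h.r0 h.u0
  rw [← mul_assoc] at this
  exact (mul_mem_cancel_right he).1 this

theorem prad (U : UB Y) (h : Ot Y N E r u v) (h' : Ot Y N E r' u' v')
    (e : v * v' * (v * v') ∈ E) : r' = r := by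
  by_contra ne
  have c := A.o_fix h (A.o_nrm h') (by simpa [inv_of_sq h'.v2, mul_assoc] using e)
  have c' := A.o_fix h' (A.o_nrm h) (by
    simpa [inv_of_sq h'.v2, inv_of_sq h.v2, mul_assoc] using inv_mem e)
  have f : F1 Y r r' := ⟨h.f.it, h'.f.it, Ne.symm ne, A.yB (A.o_cen h h'.r0 c') (A.yr r) h.f.y⟩
  exact A.nb2 U ⟨h.hE, f, h.r0, h'.r0, h.v2, h.v0, h.yr, (A.di h'.f.it.1 c').resolve_left fun d =>
    (A.o_rad h h'.r0 d).elim h'.f.it.2 ne⟩ ⟨h.hE, A.fs f, h'.r0, h.r0, h'.v2, h'.v0, h'.yr,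
    (A.di h.f.it.1 c).resolve_left fun d => (A.o_rad h' h.r0 d).elim h.f.it.2 (Ne.symm ne)⟩

theorem comm2 (U : UB Y) (hE : E16 E) (hT : IsPGroup 2 T) (le : E ≤ T) [(E.subgroupOf T).Normal]
    (a b : T ⧸ E.subgroupOf T) : a * b = b * a := by
  have nr := A.norm2 hE hT le
  let π := QuotientGroup.mk' (E.subgroupOf T)
  have k : ∀ x : T, π x = 1 ↔ x.1 ∈ E := fun x => QuotientGroup.eq_one_iff x
  obtain ⟨x, rfl⟩ := QuotientGroup.mk'_surjective _ a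
  obtain ⟨y, rfl⟩ := QuotientGroup.mk'_surjective _ b
  by_cases x0 : π x = 1
  · show π x * π y = π y * π x
    rw [x0, one_mul, mul_one]
  obtain ⟨w, -, w1, w2, w3⟩ := exists_cen_inv (X := (⊤ : Subgroup (T ⧸ E.subgroupOf T)))
    ((hT.to_quotient _).to_subgroup _) fun e => x0 (mem_bot.1 (e ▸ mem_top _))
  obtain ⟨z, rfl⟩ := QuotientGroup.mk'_surjective _ w
  obtain ⟨e, he, r, u, o⟩ := A.o_coset hE (nr z.2) (fun d => w1 ((k z).2 d))
    ((k (z * z)).1 (by rw [map_mul]; exact w2))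
  let z' : T := z * ⟨e, le he⟩
  have hz : π z' = π z := by rw [map_mul, (k ⟨e, le he⟩).2 he, mul_one]
  have c0 : ∀ g : T, z'.1 * (g * z'.1 * (g : G)⁻¹) ∈ E := fun g => (k (z' * (g * z' * g⁻¹))).1 (by
    rw [map_mul π z', map_mul π (g * z'), map_mul π g, map_inv, hz, w3 (π g) (mem_top _),
      mul_inv_cancel_right]; exact w2)
  have c1 : ∀ g : T, g.1 * r = r * g.1 := fun g => A.o_fix o (nr g.2) (c0 g)
  have c2 : ∀ g : T, g.1 * u = u * g.1 ∨ g.1 * u * (g : G)⁻¹ = r * u := fun g => by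
    have p := nm (nr g.2) o.u0
    have q := cj_comm (A.nc o.nu) g.1
    have q' := hE.comm (c0 g) p
    rw [mul_assoc, show g.1 * z'.1 * (g : G)⁻¹ * _ = _ from q, ← mul_assoc, ← mul_assoc _ z'.1] at q'
    rcases A.o_cen o p (mul_right_cancel q') with d | d | d | d
    · exact absurd d (conj_ne_one o.f.iu.2)
    · exact absurd (by simpa using (cj_of (c1 g)).trans d.symm) o.f.ne
    exacts [Or.inl (of_cj d), Or.inr d]
  have key : ∀ g : T, g.1 * u = u * g.1 → ∀ b, π g * b = b * π g := fun g d b => by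
    rcases A.db U o (c1 g) d with c | c
    · rw [(k g).2 c, one_mul, mul_one]
    · have := (k (z' * g)).2 c
      rw [map_mul, hz] at this
      rw [eq_inv_of_mul_eq_one_right this, inv_of_sq w2]
      exact (w3 _ (mem_top _)).symm
  rcases c2 x with d | d
  · exact key x d _
  rcases c2 y with d' | d'
  · exact (key y d' _).symm
  have := key (x * y) (of_cj (by
    calc x.1 * y * u * (x.1 * y)⁻¹ = x * (y * u * (y : G)⁻¹) * (x : G)⁻¹ := by group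
      _ = u := by rw [d', ← conj_mul, cj_of (c1 x), d, sq_cancel o.f.it.1])) (π x)
  rw [map_mul, mul_assoc] at this
  exact (mul_left_cancel this).symm

theorem bx (U : UB Y) (h : Ot Y N E r u v) (e : g * v * g⁻¹ ∈ E) : Pr E := by
  have hE := h.hE
  have k2 : ∀ x ∈ Cen v ⊓ Cen u, x * x = 1 := fun x hx =>
    A.a1 h.v2 h.f.iu.1 h.nu (mem_Cen.1 hx.1).symm (mem_Cen.1 hx.2).symm
  obtain ⟨m, e1, hm⟩ := A.ext (R := Cen v ⊓ Cen u) hE e (conj_ne_one (A.n1 (A.ns h.nu)))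
    (fun x => ⟨1, Subtype.ext ((pow_two x.1).trans (k2 x x.2))⟩) inf_le_left rfl
  have n1 := hm r ⟨mem_Cen.2 (A.yc h.yr), mem_Cen.2 (A.fc h.f).symm⟩
  have n2 := hm u ⟨mem_Cen.2 (A.nc h.nu), mem_Cen.2 rfl⟩
  have o := A.o_cj' h m
  rw [← e1] at e
  generalize m * r * m⁻¹ = ρ at *
  generalize m * u * m⁻¹ = w at *
  generalize m * v * m⁻¹ = x at *
  generalize cj m E = F at *
  by_cases c : ρ ∈ E <;> by_cases d : w ∈ E
  · exact absurd (U hE o.hE o.f c d o.r0 o.u0 ▸ e) o.v0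
  · obtain ⟨σ, s0, s1, s2⟩ := A.pat o.hE o.f o.r0 o.u0
    have q := A.o_sq o s0 s1 s2
    have s3 := o.hE.1 _ s0
    have nc : σ * x ≠ x * σ := fun p => o.f.it.2 (by rw [← q, sq_mul p, s3, o.v2, one_mul])
    refine ⟨σ, A.nrmB hE ⟨o.f.it, ⟨o.v2, A.n1 (A.ns o.nu)⟩, fun p => o.v0 (p ▸ o.r0), A.ys o.yr⟩ c e
      (Or.inr (Or.inl (cj_of (A.yc s1)))) (Or.inr (Or.inr (Or.inr ?_))), w, n2, s3, o.f.iu.1,
      fun p => nc (hE.comm p e), d, o.hE.1 _ (mul_mem s0 o.u0) ▸ one_mem _, fun p => nc ?_⟩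
    · rw [← q, inv_of_sq s3]; simp only [mul_assoc, o.v2, mul_one]
    · have := hE.comm p e
      rw [mul_assoc, ← A.nc o.nu, ← mul_assoc, ← mul_assoc] at this
      exact mul_right_cancel this
  · exact absurd (A.cenN hE e d o.nu (A.yc o.yr).symm (A.fc o.f)) c
  · refine ⟨ρ, n1, w, n2, o.f.it.1, o.f.iu.1, c, d, A.f2 o.f ▸ one_mem _, fun p => c ?_⟩
    exact A.cenN hE e p (A.yn' o.yr o.nu) (A.yc o.yr).symm (A.fc (A.fm o.f))

theorem leC (hE : E16 E) (ht : t ∈ E) : E ≤ normalizer (E : Set G) ⊓ Cen t :=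
  fun x hx => ⟨le_normalizer hx, mem_Cen.2 (hE.comm ht hx)⟩

theorem bc (U : UB Y) (h : Ot Y N E r u v) : Pr E := by
  by_contra np
  have hE := h.hE
  obtain ⟨T, hT, ho, le⟩ := syl (A.pg2 hE h.r0 h.f.it.2)
  have le' := (A.leC hE h.r0).trans le
  have nr := A.norm2 hE hT le'
  have : (E.subgroupOf T).Normal := normal_subgroupOf_of_le_normalizer nr
  let _ : CommGroup (T ⧸ E.subgroupOf T) :=
    { (inferInstance : Group _) with mul_comm := A.comm2 U hE hT le' }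
  let π := QuotientGroup.mk' (E.subgroupOf T)
  have k : ∀ x : T, π x = 1 ↔ x.1 ∈ E := fun x => QuotientGroup.eq_one_iff x
  have hv : v ∈ T := le ⟨A.o_nrm h, mem_Cen.2 (A.yc h.yr).symm⟩
  refine tr A.sn T ho π h.v2 (c := π ⟨v, hv⟩) (fun d => h.v0 ((k _).1 d)) fun g hm => ?_
  have x2 : g⁻¹ * v * g * (g⁻¹ * v * g) = 1 := by simpa using cj_sq h.v2 g⁻¹
  have p : ∀ x : T, x.1 * x.1 = 1 → π x * π x = 1 := fun x d => by
    rw [← map_mul, show x * x = 1 from Subtype.ext d, map_one]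
  have : v * (g⁻¹ * v * g) ∈ E := by
    by_contra d
    refine np ⟨v, nr hv, _, nr hm, h.v2, x2, h.v0, fun c => np (A.bx U h (g := g⁻¹) (by
      rwa [inv_inv])), (k (⟨v, hv⟩ * ⟨_, hm⟩ * (⟨v, hv⟩ * ⟨_, hm⟩))).1 ?_, d⟩
    rw [map_mul, map_mul, mul_mul_mul_comm, p _ h.v2, p _ x2, one_mul]
  have := (k (⟨v, hv⟩ * ⟨_, hm⟩)).2 this
  rw [map_mul] at this
  rw [eq_inv_of_mul_eq_one_right this, inv_of_sq (p _ h.v2)]

theorem bn' (hE : E16 E) (ht : t ∈ E) (t1 : t ≠ 1)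
    (h : ∀ r u v, Ot Y N E r u v → v * t ≠ t * v) : Cen t = E :=
  A.bn hE ht t1 fun g hg c => by
    by_contra g0
    obtain ⟨y, y0, y1, y2, y3⟩ := lt_norm_sq (A.pg2 hE ht t1)
      (lt' (A.leC hE ht) g ⟨hg, mem_Cen.2 c.symm⟩ g0)
    obtain ⟨e, he, r, u, o⟩ := A.o_coset hE y1 y2 y3
    exact h _ _ _ o (mem_Cen.1 (mul_mem y0.2 (A.leC hE ht he).2)).symm

theorem dq (U : UB Y) (h : Ot Y N E r u v) (h' : Ot Y N E r' u' v') :
    (∃ m ∈ normalizer (E : Set G), v' * (m * v * m⁻¹) ∈ E) ∨ r' = r := by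
  let π := QuotientGroup.mk' (E.subgroupOf (normalizer (E : Set G)))
  have k : ∀ x, π x = 1 ↔ x.1 ∈ E := fun x => QuotientGroup.eq_one_iff x
  have p : ∀ {x} (hx : x ∈ normalizer (E : Set G)), x * x = 1 → π ⟨x, hx⟩ * π ⟨x, hx⟩ = 1 :=
    fun {x} hx d => by rw [← map_mul, k]; show x * x ∈ E; rw [d]; exact one_mem _
  have a2 := p (A.o_nrm h) h.v2
  have b2 := p (A.o_nrm h') h'.v2
  rcases dih (X := ⊤) (mem_top _) (mem_top _) a2 b2 with ⟨m, -, e⟩ | ⟨i, -, i1, i2, c1, c2⟩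
  · obtain ⟨m, rfl⟩ := QuotientGroup.mk'_surjective _ m
    refine Or.inl ⟨m, m.2, (k (⟨v', A.o_nrm h'⟩ * (m * ⟨v, A.o_nrm h⟩ * m⁻¹))).1 ?_⟩
    rw [map_mul, map_mul, map_mul, map_inv, e, b2]
  · obtain ⟨i, rfl⟩ := QuotientGroup.mk'_surjective _ i
    obtain ⟨e, he, r3, u3, o⟩ := A.o_coset h.hE i.2 (fun d => i1 ((k i).2 d))
      ((k (i * i)).1 (by rw [map_mul]; exact i2))
    have q : ∀ {r u v} (h : Ot Y N E r u v), π ⟨v, A.o_nrm h⟩ * π i = π i * π ⟨v, A.o_nrm h⟩ →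
        r3 = r := fun {r u v} h c => A.prad U h o ((k (⟨v, A.o_nrm h⟩ * (i * ⟨e, le_normalizer he⟩) *
          (⟨v, A.o_nrm h⟩ * (i * ⟨e, le_normalizer he⟩)))).1 (by
      rw [map_mul, map_mul, map_mul, (k ⟨e, le_normalizer he⟩).2 he, mul_one, sq_mul c, p _ h.v2,
        one_mul]; exact i2))
    exact Or.inr ((q h' c2).symm.trans (q h c1))

theorem bv (U : UB Y) (hE : E16 E) (h : Pr E) : False := by
  obtain ⟨v, n1, v', n2, v2, v2', v0, v0', e, e0⟩ := h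
  obtain ⟨r, u, o⟩ := A.o_inv hE n1 v0 v2
  obtain ⟨r', u', o'⟩ := A.o_inv hE n2 v0' v2'
  obtain rfl := A.prad U o o' e
  have all : ∀ r2 u2 x, Ot Y N E r2 u2 x → r2 = r' := fun r2 u2 x p => by
    by_contra ne
    obtain ⟨m, hm, c⟩ := (A.dq U o p).resolve_right ne
    obtain ⟨m', hm', c'⟩ := (A.dq U o' p).resolve_right ne
    have hn := mul_mem (inv_mem hm') hm
    have d : v' * (m'⁻¹ * m * v * (m'⁻¹ * m)⁻¹) ∈ E := by
      simpa [mul_assoc, inv_of_sq v2'] using nm (inv_mem hm') (mul_mem (inv_mem c') c)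
    have d' := of_cj (A.o_uniq o' (A.o_cj o hn) d)
    have : (E.subgroupOf (normalizer (E : Set G) ⊓ Cen r')).Normal :=
      normal_subgroupOf_of_le_normalizer inf_le_left
    let π := QuotientGroup.mk' (E.subgroupOf (normalizer (E : Set G) ⊓ Cen r'))
    have k : ∀ x, π x = 1 ↔ x.1 ∈ E := fun x => QuotientGroup.eq_one_iff x
    let a : ↥(normalizer (E : Set G) ⊓ Cen r') := ⟨v, n1, mem_Cen.2 (A.yc o.yr).symm⟩
    let b : ↥(normalizer (E : Set G) ⊓ Cen r') := ⟨v', n2, mem_Cen.2 (A.yc o'.yr).symm⟩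
    let c : ↥(normalizer (E : Set G) ⊓ Cen r') := ⟨_, hn, mem_Cen.2 d'.symm⟩
    have cm := A.comm2 U hE (A.pg2 hE o.r0 o.f.it.2) (A.leC hE o.r0)
    have := (k (b * (c * a * c⁻¹))).2 d
    rw [map_mul, map_mul, map_mul, map_inv, cm (π c), mul_inv_cancel_right, cm, ← map_mul] at this
    exact e0 ((k _).1 this)
  obtain ⟨t, ht, c⟩ := A.exN hE o.r0 o.f.it.2
  have hC := A.bn' hE ht (A.n1 (A.ns c)) fun r2 u2 x p d => by
    obtain rfl := all _ _ _ p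
    exact A.nb (A.ys (A.yB (A.o_cen p ht d) (A.yr _) p.f.y)) c
  obtain ⟨T, hT, ho, le⟩ := syl hE.pg
  have nr := A.norm2 hE hT le
  have fx : ∀ g ∈ normalizer (E : Set G), g * r' = r' * g := fun g hg =>
    of_cj (all _ _ _ (A.o_cj o hg))
  obtain ⟨g, g1, g2⟩ := thompson A.sn (S0 := A.Ky r') ho (fun x hx y hy x0 y0 =>
    A.nn ((A.di o.f.it.1 (fx x (nr hx))).resolve_left x0)
      ((A.di o.f.it.1 (fx y (nr hy))).resolve_left y0)) (hE.1 t ht)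
  have mF : ∀ y, g⁻¹ * t * g * y = y * (g⁻¹ * t * g) → y ∈ cj g⁻¹ E := fun y d => mem_cj.2 (by
    rw [← hC, ← mem_Cen_conj, inv_inv]; exact mem_Cen.2 d)
  have : E = cj g⁻¹ E := by
    by_cases x0 : g⁻¹ * t * g ∈ E
    · exact hE.eq (hE.cj _) fun y hy => mF y (hE.comm x0 hy)
    · obtain ⟨r2, u2, p⟩ := A.o_inv hE (nr g1) x0 (by simpa using cj_sq (hE.1 t ht) g⁻¹)
      exact U hE (hE.cj _) p.f p.r0 p.u0 (mF _ (A.yc p.yr)) (mF _ (A.nc p.nu))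
  exact A.nb g2 (by simpa using A.nj' c (fx _ (cj_eq this.symm)))

theorem nx (hE : E16 E) (ha : a ∈ E) (hb : b ∈ E) (hx : x ∈ E) :
    N (a * b) x ↔ ¬ (N a x ↔ N b x) := by
  have k : ∀ {a}, Y a x → ¬ N a x := fun h => A.nb h
  rcases A.dE hE ha hx with c | c <;> rcases A.dE hE hb hx with d | d
  · simp [k c, k d, k (A.yy c d)]
  · simp [k c, d, A.yn c d]
  · simp [c, k d, A.ny c d]
  · simp [c, d, k (A.nn c d)]

theorem b0 (hE : E16 E) (hc : ∀ t ∈ E, t ≠ 1 → Cen t = E) : False := by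
  have tr : ∀ a ∈ E, ∀ b ∈ E, a ≠ 1 → b ≠ 1 → ∃ g ∈ normalizer (E : Set G), g * a * g⁻¹ = b := by
    intro a ha b hb a1 b1
    obtain ⟨k, hk⟩ : ∃ k, k * a * k⁻¹ ∉ E := by
      by_contra! d
      rcases A.sn.normal_cases E.normalCore inferInstance with e | e
      · exact a1 (mem_bot.1 (e ▸ (d : a ∈ E.normalCore)))
      · exact A.sn.nc fun x y => hE.comm (E.normalCore_le (e ▸ mem_top x))
          (E.normalCore_le (e ▸ mem_top y))
    rcases dih (X := ⊤) (mem_top _) (mem_top _) (cj_sq (hE.1 a ha) k) (hE.1 b hb) with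
      ⟨m, -, e⟩ | ⟨i, -, i1, i2, c1, c2⟩
    · have e' : m * k * a * (m * k)⁻¹ = b := by rw [← e]; group
      refine ⟨m * k, mem_normalizer_of_conj_mem fun x hx => ?_, e'⟩
      rw [← hc b hb b1, ← e', conj_mem_Cen]
      exact mem_Cen.2 (hE.comm ha hx)
    · exact absurd (hc i (hc b hb b1 ▸ mem_Cen.2 c2) i1 ▸ mem_Cen.2 c1.symm) hk
  have : Nontrivial E := Finite.one_lt_card_iff_nontrivial.1 (by rw [hE.2]; omega)
  obtain ⟨⟨t, ht⟩, t1⟩ := exists_ne (1 : E)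
  replace t1 : t ≠ 1 := fun e => t1 (Subtype.ext e)
  let π := QuotientGroup.mk' (E.subgroupOf (normalizer (E : Set G)))
  have k : ∀ x, π x = 1 ↔ x.1 ∈ E := fun x => QuotientGroup.eq_one_iff x
  obtain ⟨y, y1, y3, hy⟩ := n15 (Q := _ ⧸ E.subgroupOf (normalizer (E : Set G))) (by
    have : MulAction.stabilizer (normalizer (E : Set G)) (⟨t, ht⟩ : E) =
        E.subgroupOf (normalizer (E : Set G)) := by
      ext g
      rw [MulAction.mem_stabilizer_iff, Subtype.ext_iff, mem_subgroupOf]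
      exact (mul_inv_eq_iff_eq_mul.trans eq_comm).trans
        (mem_Cen.symm.trans (SetLike.ext_iff.1 (hc t ht t1) _))
    rw [← index, ← this, MulAction.index_stabilizer,
      show MulAction.orbit (normalizer (E : Set G)) (⟨t, ht⟩ : E) = {1}ᶜ from ?_]
    · have := Set.ncard_add_ncard_compl ({1} : Set E)
      rw [Set.ncard_singleton, hE.2] at this
      omega
    ext x
    refine ⟨fun ⟨g, e⟩ d => conj_ne_one (g := g.1) t1 (congrArg Subtype.val (e.trans d)), fun d => ?_⟩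
    obtain ⟨g, hg, e⟩ := tr t ht x x.2 t1 fun e => d (Subtype.ext e)
    exact ⟨⟨g, hg⟩, Subtype.ext e⟩)
  obtain ⟨⟨y, hn⟩, rfl⟩ := QuotientGroup.mk'_surjective _ y
  have act : ∀ g h : normalizer (E : Set G), π g = π h → ∀ x ∈ E,
      g.1 * x * g.1⁻¹ = h.1 * x * h.1⁻¹ := fun g h e x hx => by
    have := cj_of (hE.comm ((k (h⁻¹ * g)).1 (by rw [map_mul, map_inv, e, inv_mul_cancel])) hx)
    conv_rhs => rw [← this]
    simp [mul_assoc]
  have p3 : ∀ x ∈ E, y * (y * (y * x * y⁻¹) * y⁻¹) * y⁻¹ = x := fun x hx => by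
    simpa [mul_assoc] using act (⟨y, hn⟩ * ⟨y, hn⟩ * ⟨y, hn⟩) 1 (by
      rw [map_mul, map_mul, map_one]; exact y3) x hx
  have p1 : ∀ x ∈ E, y * x * y⁻¹ * (y * (y * x * y⁻¹) * y⁻¹) = x := fun x hx => by
    have m1 := nm hn hx
    have m2 := nm hn m1
    by_contra d
    refine y1 ((k _).2 ((hc _ (mul_mem (mul_mem m1 m2) hx) (fun e => d ?_)).le
      (mem_Cen.2 (of_cj (g := y) ?_).symm)))
    · rw [eq_inv_of_mul_eq_one_left e, inv_of_sq (hE.1 x hx)]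
    · rw [← conj_mul, ← conj_mul, p3 x hx, hE.comm (mul_mem m2 hx) m1, ← mul_assoc]
  have nj : ∀ {a b} (g : G), N (g * a * g⁻¹) (g * b * g⁻¹) ↔ N a b := fun g =>
    ⟨fun h => by simpa [mul_assoc] using A.nj g⁻¹ h, A.nj g⟩
  have ns : ∀ {a b}, N a b ↔ N b a := ⟨A.ns, A.ns⟩
  have q0 : ∀ x ∈ E, x ≠ 1 → (N (y * x * y⁻¹) x ↔ N (y * t * y⁻¹) t) := fun x hx x1 => by
    obtain ⟨g, hg, rfl⟩ := tr x hx t ht x1 t1
    rw [← nj g⁻¹ (b := g * x * g⁻¹)]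
    have e : g⁻¹ * (y * (g * x * g⁻¹) * y⁻¹) * g⁻¹⁻¹ = g⁻¹ * y * g⁻¹⁻¹ * x * (g⁻¹ * y * g⁻¹⁻¹)⁻¹ := by
      group
    rw [e, show g⁻¹ * (g * x * g⁻¹) * g⁻¹⁻¹ = x by group]
    rcases hy (π ⟨g, hg⟩⁻¹) with d | d
    · rw [show g⁻¹ * y * g⁻¹⁻¹ * x * (g⁻¹ * y * g⁻¹⁻¹)⁻¹ = y * x * y⁻¹ from
        act (⟨g, hg⟩⁻¹ * ⟨y, hn⟩ * ⟨g, hg⟩⁻¹⁻¹) ⟨y, hn⟩ d x hx]
    · rw [show g⁻¹ * y * g⁻¹⁻¹ * x * (g⁻¹ * y * g⁻¹⁻¹)⁻¹ = y * y * x * (y * y)⁻¹ from
        act (⟨g, hg⟩⁻¹ * ⟨y, hn⟩ * ⟨g, hg⟩⁻¹⁻¹) (⟨y, hn⟩ * ⟨y, hn⟩) (d.trans (map_mul π _ _).symm) x hx,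
        ← nj y (a := y * y * x * (y * y)⁻¹),
        show y * (y * y * x * (y * y)⁻¹) * y⁻¹ = x from (by group : _ = _).trans (p3 x hx), ns]
  have q1 : ∀ a ∈ E, ∀ b ∈ E, a ≠ 1 → b ≠ 1 → a * b ≠ 1 → (N a b ↔ N (y * t * y⁻¹) t) :=
    fun a ha b hb a1 b1 ab => by
      have ma := nm hn ha
      have mb := nm hn hb
      have e1 := q0 _ (mul_mem ha hb) ab
      have e2 := q0 a ha a1
      have e3 := q0 b hb b1
      have e4 := A.nx hE ma (nm hn ma) hb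
      have e5 : N (y * (y * a * y⁻¹) * y⁻¹) b ↔ N a (y * b * y⁻¹) := by rw [← nj y, p3 a ha]
      rw [p1 a ha, e5] at e4
      rw [← conj_mul, A.nx hE ma mb (mul_mem ha hb), ns, A.nx hE ha hb ma, ns (b := a * b),
        A.nx hE ha hb mb, ns (a := a), ns (a := b), ns (a := b)] at e1
      tauto
  obtain ⟨u, hu, f⟩ := A.exF hE ht t1
  obtain ⟨s, hs, c⟩ := A.exN hE ht t1
  exact A.nb f.y ((q1 t ht u hu t1 f.iu.2 (A.fm f).iu.2).2 ((q1 s hs t ht (A.n1 (A.ns c)) t1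
    (A.n1 (A.ns (A.ny c (A.yr t))))).1 c))

theorem caseB (hE : E16 E) : ¬ UB Y := fun U => by
  by_cases h : ∃ r u v, Ot Y N E r u v
  · obtain ⟨r, u, v, o⟩ := h
    exact A.bv U hE (A.bc U o)
  · exact A.b0 hE fun t ht t1 => A.bn' hE ht t1 fun r u v o _ => h ⟨r, u, v, o⟩

end Ax

end Cfsg.Agent.LD.F4
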