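import Cfsg.Agent.LD.F4.R4
import Cfsg.Agent.LD.ZS3

/-! Rank four: the local data of `L_3(4)`. -/

set_option autoImplicit false
set_option linter.unusedVariables false
set_option linter.unusedSectionVars false

namespace Cfsg.Agent.LD.F4

open Subgroup Cfsg.Agent.H8.M3 Cfsg.Agent.H7.BD Cfsg.Agent.H3.ZD Cfsg.Agent.H3

universe u

variable {G : Type u} [Group G] [Finite G] {Y N : G → G → Prop}
  {a b e g h k m n p r s t u v w x y σ τ x' v' : G} {E E' F T X R : Subgroup G}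

/-- two elementary abelian subgroups of order sixteen through a type I four-group -/
structure Tw (Y : G → G → Prop) (E E' : Subgroup G) (t u : G) : Prop where
  hE : E16 E
  hE' : E16 E'
  ne : E ≠ E'
  f : F1 Y t u
  t0 : t ∈ E
  u0 : u ∈ E
  t1 : t ∈ E'
  u1 : u ∈ E'

theorem Tw.sw (w : Tw Y E E' t u) : Tw Y E' E t u :=
  ⟨w.hE', w.hE, w.ne.symm, w.f, w.t1, w.u1, w.t0, w.u0⟩

/-- the three involutions of `⟨t, u⟩` have the same centraliser -/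
def Cz (t u : G) : Prop := ∀ y, B4 t u y → y ≠ 1 → ∀ g, g * y = y * g → g * t = t * g ∧ g * u = u * g

theorem B4.cj (h : B4 t u x) (g : G) : B4 (g * t * g⁻¹) (g * u * g⁻¹) (g * x * g⁻¹) := by
  rcases h with rfl | rfl | rfl | rfl <;> simp [B4]

theorem Cz.cj (h : Cz t u) (g : G) : Cz (g * t * g⁻¹) (g * u * g⁻¹) := fun y hy y1 k c => by
  have := h (g⁻¹ * y * g⁻¹⁻¹) (by simpa [mul_assoc] using hy.cj g⁻¹) (conj_ne_one y1) _ (cj_comm c g⁻¹)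
  exact ⟨by simpa [mul_assoc] using cj_comm this.1 g, by simpa [mul_assoc] using cj_comm this.2 g⟩

/-- conjugacy in the normaliser -/
def Cn (E : Subgroup G) (a b : G) : Prop := ∃ g ∈ normalizer (E : Set G), g * a * g⁻¹ = b

theorem Cn.symm (h : Cn E a b) : Cn E b a :=
  let ⟨g, hg, e⟩ := h; ⟨g⁻¹, inv_mem hg, by rw [← e]; group⟩

theorem Cn.trans (h : Cn E a b) (h' : Cn E b e) : Cn E a e :=
  let ⟨g, hg, c⟩ := h; let ⟨k, hk, d⟩ := h'; ⟨k * g, mul_mem hk hg, by rw [← d, ← c]; group⟩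

theorem Cn.rfl' : Cn E a a := ⟨1, one_mem _, by group⟩

namespace Ax

variable (A : Ax G Y N)
include A

theorem ws (w : Tw Y E E' t u) : Tw Y E E' u t :=
  ⟨w.hE, w.hE', w.ne, A.fs w.f, w.u0, w.t0, w.u1, w.t1⟩

theorem wm (w : Tw Y E E' t u) : Tw Y E E' (t * u) u :=
  ⟨w.hE, w.hE', w.ne, A.fm' w.f, mul_mem w.t0 w.u0, w.u0, mul_mem w.t1 w.u1, w.u1⟩

theorem wD (w : Tw Y E E' t u) (h1 : g * t = t * g) (h2 : g * u = u * g) :
    g ∈ normalizer (E : Set G) := A.nrmD w.hE w.f w.t0 w.u0 h1 h2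

theorem wc (w : Tw Y E E' t u) (v2 : v * v = 1) (h1 : v * t = t * v) (h2 : v * u = u * v) :
    v ∈ E ∨ v ∈ E' := A.cover w.hE w.hE' w.ne w.f w.t0 w.u0 w.t1 w.u1 v2 h1 h2

theorem wi (w : Tw Y E E' t u) (hx : x ∈ E) (hx' : x ∈ E') : B4 t u x :=
  A.two_inf w.hE w.hE' w.ne w.f w.t0 w.u0 w.t1 w.u1 hx hx'

theorem wz (w : Tw Y E E' t u) (hv : v ∈ E') (v0 : v ∉ E) (hx : x ∈ E) (c : v * x = x * v) :
    B4 t u x := A.o_cen' w.hE w.f w.t0 w.u0 (w.hE'.1 v hv) v0 (w.hE'.comm hv w.t1)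
  (w.hE'.comm hv w.u1) hx c

theorem wo (w : Tw Y E E' t u) : ∃ v ∈ E', Ot Y N E t u v :=
  A.two_ot w.hE w.hE' w.ne w.f w.t0 w.u0 w.t1 w.u1

theorem wd (w : Tw Y E E' t u) (h1 : g * t = t * g) (h2 : g * u = u * g) (g0 : g ∉ E) :
    ∃ e ∈ E, g * e ∈ E' := by
  obtain ⟨e, he, c⟩ := A.o_D w.hE w.f w.t0 w.u0 g0 h1 h2
  have k : ∀ {x}, x ∈ E → g * x = x * g → g * e * x = x * (g * e) := fun hx d => by
    rw [mul_assoc, w.hE.comm he hx, ← mul_assoc, d, mul_assoc]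
  exact ⟨e, he, (A.wc w c (k w.t0 h1) (k w.u0 h2)).resolve_left
    fun d => g0 ((mul_mem_cancel_right he).1 d)⟩

theorem memD (w : Tw Y E E' t u) : g ∈ E ⊔ E' ↔ g * t = t * g ∧ g * u = u * g := by
  refine ⟨fun h => ?_, fun h => ?_⟩
  · have := (sup_le (fun x hx => ⟨mem_Cen.2 (w.hE.comm w.t0 hx), mem_Cen.2 (w.hE.comm w.u0 hx)⟩)
      (fun x hx => ⟨mem_Cen.2 (w.hE'.comm w.t1 hx), mem_Cen.2 (w.hE'.comm w.u1 hx)⟩) :
      E ⊔ E' ≤ Cen t ⊓ Cen u) h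
    exact ⟨(mem_Cen.1 this.1).symm, (mem_Cen.1 this.2).symm⟩
  · by_cases g0 : g ∈ E
    · exact mem_sup_left g0
    · obtain ⟨e, he, c⟩ := A.wd w h.1 h.2 g0
      exact (mul_mem_cancel_right (mem_sup_left he)).1 (mem_sup_right c)

theorem leD (w : Tw Y E E' t u) : E ⊔ E' ≤ normalizer (E : Set G) ⊓ Cen t := fun g hg =>
  ⟨A.wD w ((A.memD w).1 hg).1 ((A.memD w).1 hg).2, mem_Cen.2 ((A.memD w).1 hg).1.symm⟩

theorem pgD (w : Tw Y E E' t u) : IsPGroup 2 ↥(E ⊔ E') :=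
  (A.pg2 w.hE w.t0 w.f.it.2).to_le (A.leD w)

theorem cardD (w : Tw Y E E' t u) : Nat.card ↥(E ⊔ E') = 64 := by
  have k : ∀ {X Z : Subgroup G}, X ≤ Z → Nat.card X * X.relIndex Z = Nat.card Z := fun {X Z} le => by
    rw [← card_mul_index (X.subgroupOf Z), relIndex, Nat.card_congr (subgroupOfEquivOfLe le).toEquiv]
  have hl : E' ≤ normalizer (E : Set G) := le_sup_right.trans ((A.leD w).trans inf_le_left)
  have := normal_subgroupOf_of_le_normalizer hl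
  have := normal_subgroupOf_sup_of_le_normalizer hl
  have e : E.relIndex E' = E.relIndex (E' ⊔ E) := Nat.card_congr
    (QuotientGroup.quotientInfEquivProdNormalizerQuotient E' E hl).toEquiv
  have h1 := k (inf_le_right : E ⊓ E' ≤ E')
  have h2 := k (le_sup_right : E ≤ E' ⊔ E)
  obtain ⟨σ, s0, s1, s2⟩ := A.pat w.hE w.f w.t0 w.u0
  have l1 := two_card_le (lt' (X := ⊥) (T := E ⊓ E' ⊓ A.Ky σ) bot_le t ⟨⟨w.t0, w.t1⟩, A.ys s1⟩ w.f.it.2)
  have l2 := two_card_le (lt' (X := E ⊓ E' ⊓ A.Ky σ) inf_le_left u ⟨w.u0, w.u1⟩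
    fun d => A.nb d.2 (A.ns s2))
  have l3 := card_le4 (X := E ⊓ E') fun x hx => A.wi w hx.1 hx.2
  rw [card_bot] at l1
  rw [inf_relIndex_right, e, w.hE'.2, show Nat.card ↥(E ⊓ E') = 4 by omega] at h1
  rw [w.hE.2, sup_comm] at h2
  rw [sup_comm] at h1
  omega

theorem wn (w : Tw Y E E' t u) (hg : g ∈ normalizer (E : Set G)) (c : g * t = t * g) :
    g ∈ normalizer (E' : Set G) :=
  A.norm2 w.hE' (A.pg2 w.hE w.t0 w.f.it.2) (le_sup_right.trans (A.leD w)) ⟨hg, mem_Cen.2 c.symm⟩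

theorem du (w : Tw Y E E' t u) (hg : g ∈ normalizer (E : Set G)) (c : g * t = t * g)
    (d : g * u ≠ u * g) : g * u * g⁻¹ = t * u := by
  rcases A.wi w (nm hg w.u0) (nm (A.wn w hg c) w.u1) with e | e | e | e
  · exact absurd e (conj_ne_one w.f.iu.2)
  · exact absurd (by simpa using (cj_of c).trans e.symm) w.f.ne
  exacts [absurd (of_cj e) d, e]

theorem du2 (w : Tw Y E E' t u) (hg : g ∈ normalizer (E : Set G)) (c : g * t = t * g)
    (d : g * u ≠ u * g) (hk : k ∈ normalizer (E : Set G)) (c' : k * t = t * k)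
    (d' : k * u ≠ u * k) : g * k * u = u * (g * k) := of_cj (by
  calc g * k * u * (g * k)⁻¹ = g * (k * u * k⁻¹) * g⁻¹ := by group
    _ = u := by rw [A.du w hk c' d', ← conj_mul, cj_of c, A.du w hg c d, sq_cancel w.f.it.1])

theorem pB (o : Ot Y N E t p g) (d : g * u ≠ u * g) : ¬ B4 t u p := by
  have c := A.nc o.nu
  rintro (rfl | rfl | rfl | rfl)
  exacts [o.f.iu.2 rfl, o.f.ne rfl, d c, d (mul_left_cancel (a := t) (by
    rw [← mul_assoc, ← A.yc o.yr, mul_assoc, c, mul_assoc]))]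

theorem y4 (w : Tw Y E E' t u) (o : Ot Y N E t p g) (d : g * u ≠ u * g) (hF : E16 F) (g0 : g ∈ F)
    (t0 : t ∈ F) (p0 : p ∈ F) : False := by
  have n : ∀ x ∈ F, x ∈ normalizer (E : Set G) := fun x hx =>
    A.nrmD w.hE o.f o.r0 o.u0 (hF.comm hx t0) (hF.comm hx p0)
  have l1 := card_le_two (X := F ⊓ Cen u) (Y := F) (g := g) fun y hy => (em (y * u = u * y)).imp
    (fun c => ⟨hy, mem_Cen.2 c.symm⟩) fun c => ⟨mul_mem hy g0, mem_Cen.2
      (A.du2 w (n y hy) (hF.comm hy t0) c (n g g0) (hF.comm g0 t0) d).symm⟩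
  have l2 := card_le4 (X := F ⊓ Cen u) (t := t) (u := p) fun x hx => by
    by_cases x0 : x ∈ E
    · exact A.o_cen o x0 (hF.comm g0 hx.1)
    · exact absurd (A.wz w ((A.wc w (hF.1 x hx.1) (hF.comm hx.1 t0) (mem_Cen.1 hx.2).symm).resolve_left
        x0) x0 o.u0 (hF.comm hx.1 p0)) (A.pB o d)
  have := hF.2
  omega

theorem rad (w : Tw Y E E' t u) (hg : g ∈ normalizer (E : Set G)) (c : g * t = t * g)
    (d : g * u ≠ u * g) (g2 : g * g = 1) : ∃ p, Ot Y N E t p g := by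
  obtain ⟨r, p, o⟩ := A.o_inv w.hE hg (fun e => d (w.hE.comm e w.u0)) g2
  obtain rfl := (A.o_rad o w.t0 ((A.di w.f.it.1 c).resolve_right fun e =>
    A.nb (A.y1 u) (g2 ▸ A.sq w.f e (A.du w hg c d)))).resolve_left w.f.it.2
  exact ⟨p, o⟩

theorem a1f (w : Tw Y E E' t u) (ho : Odd (normalizer (E : Set G) ⊓ Cen t).index)
    (hg : g ∈ normalizer (E : Set G)) (c : g * t = t * g) (d : g * u ≠ u * g) (g2 : g * g = 1)
    (e : k * g * k⁻¹ ∈ E) : False := by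
  have hg' := A.wn w hg c
  obtain ⟨p, o⟩ := A.rad w hg c d g2
  obtain ⟨p', o'⟩ := A.rad w.sw hg' c d g2
  have pS := A.pg2 w.hE w.t0 w.f.it.2
  obtain ⟨h, e1, hh⟩ := A.ext (R := normalizer (E : Set G) ⊓ Cen t ⊓ Cen g) w.hE e
    (conj_ne_one (A.n1 (A.ns o.nu))) pS.to_inf_left inf_le_right rfl
  obtain ⟨m, hm, hS⟩ := SylowIn.exists_conj_le Nat.prime_two (K := normalizer (E : Set G))
    (Q := cj h (normalizer (E : Set G) ⊓ Cen t ⊓ Cen g)) ⟨inf_le_left, pS, fun q =>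
      Nat.not_even_iff_odd.2 ho (even_iff_two_dvd.2 (q.trans (relIndex_dvd_index_of_le inf_le_left)))⟩
    (pS.to_inf_left.comap_of_injective _ (MulAut.conj h⁻¹).injective)
    fun x hx => by simpa [mul_assoc] using hh _ (mem_cj.1 hx)
  have nu : ∀ {E E' p}, Tw Y E E' t u → Ot Y N E t p g → N p u := fun w o =>
    (A.dE w.hE o.u0 w.u0).resolve_left fun q =>
      A.pB o d (A.a2 w.f o.f.iu.1 (A.ys o.f.y) q)
  have sq : p * p' * (p * p') = t := A.o_sq ⟨w.hE, w.f, w.t0, w.u0, o'.f.iu.1,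
    fun q => A.pB o' d (A.wi w q o'.u0), A.ys o'.f.y, nu w.sw o'⟩ o.u0 (A.ys o.f.y) (nu w o)
  have q0 := hS _ (cj_mem.2 (show p * p' ∈ _ from ⟨A.leD w (mul_mem (mem_sup_left o.u0)
    (mem_sup_right o'.u0)), mul_mem (mem_Cen.2 (A.nc o.nu)) (mem_Cen.2 (A.nc o'.nu))⟩))
  have e0 := nm hm (e1 ▸ e)
  have cc : ∀ x, m * (h * x * h⁻¹) * m⁻¹ = m * h * x * (m * h)⁻¹ := fun x => by group
  rw [cc] at q0 e0
  generalize m * h = j at q0 e0
  have o1 := A.o_cj' o j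
  have o2 := A.o_cj' o' j
  have z : j * (p * p') * j⁻¹ * (j * (p * p') * j⁻¹) = j * t * j⁻¹ := by rw [conj_mul, sq]
  have key : ∀ F, E16 F → j * g * j⁻¹ ∈ F → j * t * j⁻¹ ∈ F → False := fun F hF a b => by
    have mm : ∀ {x}, j * x * j⁻¹ ∈ F → x ∈ cj j⁻¹ F := fun hx => mem_cj.2 (by rwa [inv_inv])
    have f : F1 Y (j * t * j⁻¹) (j * g * j⁻¹) :=
      ⟨o1.f.it, ⟨o1.v2, A.n1 (A.ns o1.nu)⟩, fun q => o1.v0 (q ▸ o1.r0), A.ys o1.yr⟩
    have := hF.1 _ ((A.o_two ⟨hF, f, b, a, o1.f.iu.1, fun q => A.y4 w o d (hF.cj _) (mm a) (mm b) (mm q),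
      A.ys o1.f.y, A.ns o1.nu⟩ ⟨hF, f, b, a, o2.f.iu.1,
      fun q => A.y4 w.sw o' d (hF.cj _) (mm a) (mm b) (mm q), A.ys o2.f.y, A.ns o2.nu⟩).mem b a)
    rw [conj_mul (a := p), z] at this
    exact f.it.2 this
  have c1 := (mem_Cen.1 q0.2).symm
  have c2 : j * t * j⁻¹ * u = u * (j * t * j⁻¹) := by
    rw [← z]
    by_cases q : j * (p * p') * j⁻¹ * u = u * (j * (p * p') * j⁻¹)
    · exact (mem_Cen.1 (mul_mem (mem_Cen.2 q.symm) (mem_Cen.2 q.symm))).symm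
    · exact A.du2 w q0.1 c1 q q0.1 c1 q
  by_cases q : j * t * j⁻¹ ∈ E
  · exact key E w.hE e0 q
  · have q' := (A.wc w o1.f.it.1 (z ▸ (mem_Cen.1 (mul_mem q0.2 q0.2)).symm) c2).resolve_left q
    exact key E' w.hE' ((A.wz w q' q e0 (A.yc o1.yr).symm).mem w.t1 w.u1) q'

theorem a1x (w : Tw Y E E' t u) (ho : Odd (normalizer (E : Set G) ⊓ Cen t).index)
    (hn : n ∈ normalizer (E : Set G)) (c : n * t = t * n) : n * u = u * n := by
  by_contra d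
  have key : ∀ g ∈ normalizer (E : Set G), g * t = t * g → g * u ≠ u * g → g * g = 1 → False :=
    fun g hg c d g2 => by
    obtain ⟨k, k1, k2⟩ := thompson A.sn (S0 := Cen u) ho (fun x hx y hy x0 y0 => mem_Cen.2
      (A.du2 w hx.1 (mem_Cen.1 hx.2).symm (fun q => x0 (mem_Cen.2 q.symm)) hy.1 (mem_Cen.1 hy.2).symm
        fun q => y0 (mem_Cen.2 q.symm)).symm) g2
    rcases A.wc w (by simpa using cj_sq g2 k⁻¹) (mem_Cen.1 k1.2).symm (mem_Cen.1 k2).symm with e | e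
    · exact A.a1f w ho hg c d g2 (k := k⁻¹) (by rwa [inv_inv])
    · refine A.a1f w.sw (ho.of_dvd_nat (index_dvd_of_le fun x hx =>
        ⟨A.wn w hx.1 (mem_Cen.1 hx.2).symm, hx.2⟩)) (A.wn w hg c) c d g2 (k := k⁻¹) (by rwa [inv_inv])
  have k2 : ∀ {E E'}, Tw Y E E' t u → ∀ g ∈ normalizer (E : Set G), g * t = t * g → g * u ≠ u * g →
      ∀ e ∈ E, g * e * t = t * (g * e) ∧ g * e * u ≠ u * (g * e) := fun w g hg c d e he =>
    ⟨by rw [mul_assoc, w.hE.comm he w.t0, ← mul_assoc, c, mul_assoc], fun q => d (mul_right_cancel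
      (b := e) (by rw [mul_assoc, ← w.hE.comm he w.u0, ← mul_assoc, q, mul_assoc]))⟩
  have k3 : ∀ g ∈ normalizer (E : Set G), N g t → g * u ≠ u * g → False := fun g hg c d => by
    have c' := A.nc c
    rcases A.wc w (A.a3 w.f.it.1 c).1 (A.yc (A.nn c c)) (A.du2 w hg c' d hg c' d) with e | e
    · obtain ⟨e, he, r, p, o⟩ := A.o_coset w.hE hg (fun q => d (w.hE.comm q w.u0)) e
      exact key _ (A.o_nrm o) (k2 w g hg c' d e he).1 (k2 w g hg c' d e he).2 o.v2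
    · have hg' := A.wn w hg c'
      obtain ⟨e, he, r, p, o⟩ := A.o_coset w.hE' hg' (fun q => d (w.hE'.comm q w.u1)) e
      exact key _ (A.wn w.sw (A.o_nrm o) (k2 w.sw g hg' c' d e he).1) (k2 w.sw g hg' c' d e he).1
        (k2 w.sw g hg' c' d e he).2 o.v2
  rcases A.di w.f.it.1 c with q | q
  · obtain ⟨s, hs, q'⟩ := A.exN w.hE w.t0 w.f.it.2
    exact k3 _ (mul_mem hn (le_normalizer hs)) (A.yn q q') (k2 w n hn c d s hs).2
  · exact k3 n hn q d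

theorem oddD (w : Tw Y E E' t u) : Odd (E ⊔ E').index := by
  obtain ⟨T, hT, ho, le⟩ := syl (A.pgD w)
  have n1 := A.norm2 w.hE hT (le_sup_left.trans le)
  obtain ⟨z, z0, z1, z2, zc⟩ := exists_cen_inv hT fun e => w.f.it.2 (mem_bot.1 (e ▸ le (mem_sup_left w.t0)))
  have key : ∀ {t u}, Tw Y E E' t u → (∀ g ∈ T, g * t = t * g) → Odd (E ⊔ E').index := fun w c =>
    ho.of_dvd_nat (index_dvd_of_le fun g hg => (A.memD w).2 ⟨c g hg, A.a1x w (ho.of_dvd_nat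
      (index_dvd_of_le fun x hx => ⟨n1 hx, mem_Cen.2 (c x hx).symm⟩)) (n1 hg) (c g hg)⟩)
  rcases A.wi w (A.cenE w.hE fun x hx => (zc x (le (mem_sup_left hx))).symm)
    (A.cenE w.hE' fun x hx => (zc x (le (mem_sup_right hx))).symm) with e | rfl | rfl | rfl
  exacts [absurd e z1, key w zc, key (A.ws w) zc, key (A.wm w) zc]

theorem cenD (w : Tw Y E E' t u) (c : g * t = t * g) : g ∈ E ⊔ E' := by
  have hS : SylowIn 2 (E ⊔ E') (Cen t) := ⟨(A.leD w).trans inf_le_right, A.pgD w, fun q =>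
    Nat.not_even_iff_odd.2 (A.oddD w) (even_iff_two_dvd.2 (q.trans (relIndex_dvd_index_of_le
      ((A.leD w).trans inf_le_right))))⟩
  obtain ⟨s, hs, ns⟩ := A.exN w.hE w.t0 w.f.it.2
  obtain ⟨K1, K2, K⟩ := A.a6 w.f.it
  have kD : ∀ K : Subgroup G, (∀ x ∈ K, Y x t) → (∀ g, Y g t → ∀ x ∈ K, g * x * g⁻¹ ∈ K) →
      (∀ x ∈ K, x * x = 1 ∨ x * x = t) → K ≤ E ⊔ E' := fun K h1 h2 h3 x hx => by
    obtain ⟨y, hy, q⟩ := hS.exists_conj_le Nat.prime_two (Q := K) (fun x => ⟨2, Subtype.ext (by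
      show x.1 ^ (2 * 2) = 1
      rw [pow_mul, pow_two, pow_two]
      rcases h3 x x.2 with e | e <;> rw [e]
      exacts [one_mul 1, w.f.it.1])⟩) fun x hx => mem_Cen.2 (A.yc (h1 x hx)).symm
    rcases A.di w.f.it.1 (mem_Cen.1 hy).symm with d | d
    · simpa [mul_assoc] using q _ (h2 _ (A.yi d) x hx)
    · simpa [mul_assoc] using mul_mem (mul_mem (mem_sup_left hs) (q _ (h2 _ (A.yi (A.nn ns d)) x hx)))
        (inv_mem (mem_sup_left hs))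
  have l1 := kD K1 K.y1 K.n1 (K.s1 s ns)
  have l2 := kD K2 K.y2 K.n2 (K.s2 s ns)
  obtain ⟨v, -, o⟩ := A.wo w
  obtain ⟨σ, s0, s1, s2⟩ := A.pat w.hE w.f w.t0 w.u0
  have a0 := A.o_sq o s0 s1 s2
  have a1 := A.yy s1 o.yr
  have a2 := A.nn s2 o.nu
  generalize σ * v = y at a0 a1 a2
  have b0 : y * u * (y * u) = t := by rw [sq_mul (A.yc a2), a0, w.f.iu.1, mul_one]
  have key : ∀ g, Y g t → g ∈ E ⊔ E' := fun g hg => by
    have q : ∀ x, x * x = t → Y x t → g * x * g⁻¹ ∈ E ⊔ E' →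
        Y (g * x * g⁻¹) y ∨ Y (g * x * g⁻¹) (y * u) → Y (g * x * g⁻¹) u := fun x x2 x1 x0 c => by
      have k2 : g * x * g⁻¹ * (g * x * g⁻¹) = t := by rw [conj_mul, x2, cj_of (A.yc hg)]
      have k1 := A.yj' x1 (A.yc hg)
      have k0 := ((A.memD w).1 x0).2
      generalize g * x * g⁻¹ = k at *
      refine (A.di w.f.iu.1 k0).resolve_right fun d => w.f.it.2 ?_
      have := A.a5 w.f a1 a2 a0 k1 d
      rw [sq_mul (c.elim A.yc fun c => mul_right_cancel (b := u) (by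
        rw [mul_assoc, A.yc c, mul_assoc, mul_assoc, k0])), k2, a0, w.f.it.1] at this
      exact this.symm
    have b1 := A.yy a1 (A.ys w.f.y)
    have : Y (g * y * g⁻¹) u ∧ Y (g * (y * u) * g⁻¹) u := by
      rcases K.rt u y w.f a1 a2 a0 with ⟨m1, m2⟩ | ⟨m1, m2⟩
      · exact ⟨q _ a0 a1 (l1 (K.n1 g hg _ m1)) (Or.inr (K.cm _ (K.n1 g hg _ m1) _ m2)),
          q _ b0 b1 (l2 (K.n2 g hg _ m2)) (Or.inl (A.ys (K.cm _ m1 _ (K.n2 g hg _ m2))))⟩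
      · exact ⟨q _ a0 a1 (l2 (K.n2 g hg _ m1)) (Or.inr (A.ys (K.cm _ m2 _ (K.n2 g hg _ m1)))),
          q _ b0 b1 (l1 (K.n1 g hg _ m2)) (Or.inl (K.cm _ (K.n1 g hg _ m2) _ m1))⟩
    exact hS.eq_of_le Nat.prime_two (A.pg2 w.hE w.t0 w.f.it.2) inf_le_right (A.leD w) ▸
      ⟨A.nrmB w.hE w.f w.t0 w.u0 (Or.inr (Or.inl (cj_of (A.yc hg)))) (A.a2 w.f (cj_sq w.f.iu.1 g)
        (A.yj' (A.ys w.f.y) (A.yc hg)) (by simpa [mul_assoc] using A.yy (A.yi this.1) this.2)),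
        mem_Cen.2 (A.yc hg).symm⟩
  rcases A.di w.f.it.1 c with d | d
  · exact key g d
  · exact (mul_mem_cancel_right (mem_sup_left hs)).1 (key _ (A.nn d ns))

theorem cz (w : Tw Y E E' t u) : Cz t u := by
  rintro y (rfl | rfl | rfl | rfl) y1 g c
  exacts [absurd rfl y1, (A.memD w).1 (A.cenD w c), (A.memD w).1 (A.cenD (A.ws w) c),
    (A.memD w).1 (A.cenD (A.wm w) c)]

theorem dd (z : Cz t u) (z' : Cz x x') (o : Ot Y N E t u v) (o' : Ot Y N E x x' v')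
    (h : ¬ B4 t u x) : Cn E v v' := by
  rcases dih (A.o_nrm o) (A.o_nrm o') o.v2 o'.v2 with e | ⟨i, hi, i1, i2, c, c'⟩
  · exact e
  by_cases i0 : i ∈ E
  · exact absurd (A.o_cen o o'.r0 (z' i (A.o_cen o' i0 c') i1 v c).1) h
  · have k : ∀ {r s v}, Ot Y N E r s v → v * i = i * v → i * r = r * i := fun o c =>
      A.o_fix o hi (by rw [cj_of c.symm, o.v2]; exact one_mem _)
    have := z t (Or.inr (Or.inl rfl)) o.f.it.2 i (k o c)
    exact absurd (A.o_cen' o.hE o.f o.r0 o.u0 i2 i0 this.1 this.2 o'.r0 (k o' c')) h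

theorem cy1 (w : Tw Y E E' t u) (hx : g * t * g⁻¹ ∈ E) (ne : g * t * g⁻¹ ≠ t) :
    ∃ m, B4 t u (m * t * m⁻¹) ∧ B4 t u (m * u * m⁻¹) ∧ m * t * m⁻¹ ≠ t := by
  have z := A.cz w
  have z' := z.cj g
  have f := A.fj w.f g
  have k : ∀ {F}, E16 F → g * t * g⁻¹ ∈ F → g * u * g⁻¹ ∈ F := fun hF hx => A.cenE hF fun y hy =>
    (z' _ (Or.inr (Or.inl rfl)) f.it.2 y (hF.comm hy hx)).2.symm
  by_cases h : B4 t u (g * t * g⁻¹)
  · exact ⟨g, h, A.wi w (k w.hE hx) (k w.hE' (h.mem w.t1 w.u1)), ne⟩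
  obtain ⟨v', o'⟩ : ∃ v', Ot Y N E (g * t * g⁻¹) (g * u * g⁻¹) v' := by
    by_cases e : E = cj g E
    · refine (A.two_ot w.hE (w.hE'.cj g) (fun e' => w.ne ?_) f hx (k w.hE hx) (cj_mem.2 w.t1)
        (cj_mem.2 w.u1)).imp fun _ => And.right
      ext y
      rw [← cj_mem (g := g) (E := E'), ← e', ← cj_mem (g := g) (E := E) (x := y), ← e]
    · exact (A.two_ot w.hE (w.hE.cj g) e f hx (k w.hE hx) (cj_mem.2 w.t0) (cj_mem.2 w.u0)).imp
        fun _ => And.right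
  obtain ⟨v, -, o⟩ := A.wo w
  obtain ⟨v2, -, o2⟩ := A.wo (A.ws w)
  obtain ⟨m, hm, e⟩ := (A.dd z z' o o' h).trans
    (A.dd (A.cz (A.ws w)) z' o2 o' fun q => h ((A.bs w.f).1 q)).symm
  have o3 := e ▸ A.o_cj o hm
  have e' := A.o_uniq o2 o3 (o2.v2 ▸ one_mem _)
  exact ⟨m, Or.inr (Or.inr (Or.inl e')), (A.bs w.f).1 (A.o_cen o2 o3.u0 (A.nc o3.nu)),
    fun q => w.f.ne (q.symm.trans e')⟩

theorem cyc (w : Tw Y E E' t u) : ∃ h : G, h ^ 3 = 1 ∧ h * t * h⁻¹ = u ∧ h * u * h⁻¹ = t * u := by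
  have := A.sn.simple
  have z := A.cz w
  obtain ⟨g, c, ne⟩ := ZS.zstar_simple (G := G) (by simpa using A.sn.nc)
    (orderOf_eq_prime (by rw [pow_two, w.f.it.1]) w.f.it.2)
  have c' := z t (Or.inr (Or.inl rfl)) w.f.it.2 _ c.eq.symm
  obtain ⟨m, h1, h2, h3⟩ := (A.wc w (cj_sq w.f.it.1 g) c'.1 c'.2).elim (A.cy1 w · ne) (A.cy1 w.sw · ne)
  have key : ∀ m : G, m * t * m⁻¹ = u → m * u * m⁻¹ = t * u → m * (t * u) * m⁻¹ = t →
      ∃ h : G, h ^ 3 = 1 ∧ h * t * h⁻¹ = u ∧ h * u * h⁻¹ = t * u := fun m a b c => by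
    have d : m ^ 3 ∈ E ⊔ E' := pow_three' m ▸ (A.memD w).2 ⟨cyc3 a b c, cyc3 b c a⟩
    obtain ⟨k, hk⟩ := A.pgD w ⟨_, d⟩
    replace hk : (m ^ 3) ^ 2 ^ k = 1 := congrArg Subtype.val hk
    obtain ⟨j, hj⟩ : 3 ∣ 4 ^ k - 1 := by simpa using Nat.sub_dvd_pow_sub_pow 4 1 k
    have e : m ^ 4 ^ k = (m ^ 3) ^ j * m := by
      rw [← pow_mul, ← pow_succ, ← hj, Nat.sub_add_cancel (Nat.one_le_pow _ _ (by omega))]
    have q := (A.memD w).1 (pow_mem d j)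
    have q' : ∀ x, (m ^ 3) ^ j * m * x * ((m ^ 3) ^ j * m)⁻¹ =
        (m ^ 3) ^ j * (m * x * m⁻¹) * ((m ^ 3) ^ j)⁻¹ := fun x => by
      simp only [mul_assoc, mul_inv_rev]
    refine ⟨m ^ 4 ^ k, ?_, by rw [e, q', a, cj_of q.2], by
      rw [e, q', b, ← conj_mul, cj_of q.1, cj_of q.2]⟩
    rw [← pow_mul, mul_comm, pow_mul, show 4 = 2 * 2 from rfl, mul_pow, pow_mul, hk, one_pow]
  rcases act6 (A.fc w.f) w.f.it.1 w.f.iu.1 w.f.it.2 w.f.iu.2 w.f.ne h1 h2 with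
    ⟨d, e⟩ | ⟨d, e⟩ | ⟨d, e⟩ | ⟨d, e⟩ | ⟨d, e, f⟩ | ⟨d, e, f⟩
  · exact absurd d h3
  · exact absurd d h3
  · exact absurd (cj_of (z u (Or.inr (Or.inr (Or.inl rfl))) w.f.iu.2 m (of_cj d)).1) h3
  · exact absurd (cj_of (z _ (Or.inr (Or.inr (Or.inr rfl))) (A.fm w.f).iu.2 m (of_cj d)).1) h3
  · exact key m d e f
  · exact key m⁻¹ (by rw [← d]; group) (by nth_rewrite 1 [← f]; group) (by rw [← e]; group)

theorem orb (w : Tw Y E E' t u) (h1 : h * t * h⁻¹ = u) (h2 : h * u * h⁻¹ = t * u) (hx : x ∈ E)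
    (x0 : ¬ B4 t u x) (s0 : σ ∈ E) (s1 : Y σ t) (s2 : N σ u) : Cn E σ x := by
  have hn := A.nrmB w.hE w.f w.t0 w.u0 (Or.inr (Or.inr (Or.inl h1))) (Or.inr (Or.inr (Or.inr h2)))
  have h3 : h * (t * u) * h⁻¹ = t := by
    rw [← conj_mul, h1, h2, A.fc w.f, sq_cancel w.f.iu.1]
  obtain ⟨v, v0, o⟩ := A.wo w
  obtain ⟨v', v0', o'⟩ := A.wo (A.ws w)
  have cv : ∀ {r s v x b}, Ot Y N E r s v → x ∈ E → x * v * (x * v) = b → Cn E x (x * b) :=
    fun {r s v x b} o hx e => ⟨v, A.o_nrm o, by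
      rw [← e, inv_of_sq o.v2]; simp only [mul_assoc, sq_cancel (w.hE.1 x hx)]⟩
  have key : ∀ x ∈ E, Y x t → N x u → Cn E σ x := fun x hx x1 x2 => by
    have b : ∀ x ∈ E, Y x t → N x u → Cn E x (x * t) := fun x hx x1 x2 => cv o hx (A.o_sq o hx x1 x2)
    have c : Cn E σ (σ * (t * u)) := by
      refine cv o' s0 (A.fc w.f ▸ (A.o_com' o' s0 s2).resolve_left fun e => ?_)
      have e' := (A.o_sq o s0 s1 s2).trans e.symm
      simp only [mul_assoc, mul_right_inj] at e'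
      refine A.nb (A.ys (A.yB (A.wz w (mul_mem v0' v0) (fun q => A.nb (A.ys (A.yB (A.wi w q
        (mul_mem v0' v0)) (A.yr t) w.f.y)) (A.ny o'.nu o.yr)) s0 ?_) (A.ys w.f.y) (A.yr u))) s2
      calc v' * v * σ = v' * (v * (σ * v)) * v := by simp only [mul_assoc, o.v2, mul_one]
        _ = _ := by rw [e', sq_cancel o'.v2, mul_assoc]
    rw [← sq_cancel (w.hE.1 σ s0) x]
    rcases A.a2 w.f (w.hE.1 _ (mul_mem s0 hx)) (A.yy s1 x1) (A.nn s2 x2) with e | e | e | e <;> rw [e]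
    · rw [mul_one]; exact Cn.rfl'
    · exact b σ s0 s1 s2
    · have := c.trans (b _ (mul_mem s0 (mul_mem w.t0 w.u0)) (A.yy s1 (A.yy (A.yr t) (A.ys w.f.y)))
        (A.ny s2 (A.yy w.f.y (A.yr u))))
      rwa [mul_assoc, A.fc w.f, mul_assoc, w.f.it.1, mul_one] at this
    · exact c
  rcases A.dE w.hE hx w.t0 with a | a <;> rcases A.dE w.hE hx w.u0 with b | b
  · exact absurd (A.a2 w.f (w.hE.1 x hx) a b) x0
  · exact key x hx a b
  · refine (key _ (nm (inv_mem hn) hx) ?_ ?_).trans ⟨h, hn, by group⟩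
    · simpa [← h1, mul_assoc] using A.yj h⁻¹ b
    · simpa [← h2, mul_assoc] using A.nj h⁻¹ (A.ny' a b)
  · exact (key _ (nm hn hx) (h3 ▸ A.yj h (A.nn' a b)) (h1 ▸ A.nj h a)).trans (Cn.symm ⟨h, hn, rfl⟩)

theorem trE (w : Tw Y E E' t u) (h1 : h * t * h⁻¹ = u) (h2 : h * u * h⁻¹ = t * u) (hx : x ∈ E)
    (x1 : x ≠ 1) : Cn E t x := by
  have hn := A.nrmB w.hE w.f w.t0 w.u0 (Or.inr (Or.inr (Or.inl h1))) (Or.inr (Or.inr (Or.inr h2)))
  have z := A.cz w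
  by_cases x0 : B4 t u x
  · rcases x0 with rfl | rfl | rfl | rfl
    exacts [absurd rfl x1, Cn.rfl', ⟨h, hn, h1⟩, Cn.trans ⟨h, hn, h1⟩ ⟨h, hn, h2⟩]
  obtain ⟨σ, s0, s1, s2⟩ := A.pat w.hE w.f w.t0 w.u0
  by_contra c
  have nb : ∀ g ∈ normalizer (E : Set G), B4 t u (g * t * g⁻¹) := fun g hg => by
    by_contra d
    exact c (Cn.trans ⟨g, hg, rfl⟩ ((A.orb w h1 h2 (nm hg w.t0) d s0 s1 s2).symm.trans
      (A.orb w h1 h2 hx x0 s0 s1 s2)))
  have hC : ∀ e ∈ E, ¬ B4 t u e → Cen e = E := fun e he e0 => by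
    have e1 : e ≠ 1 := fun q => e0 (Or.inl q)
    have k : ∀ g, g * e = e * g → g * t = t * g ∧ g * u = u * g → g ∈ E := fun g d q => by
      by_contra g0
      obtain ⟨a, ha, b⟩ := A.wd w q.1 q.2 g0
      exact e0 (A.wz w b (fun q => g0 ((mul_mem_cancel_right ha).1 q)) he (by
        rw [mul_assoc, w.hE.comm ha he, ← mul_assoc, d, mul_assoc]))
    refine A.bn w.hE he e1 fun g hg d => ?_
    have k3 : g * g * g * t = t * (g * g * g) → g * g * g * u = u * (g * g * g) → g ∈ E := fun a b =>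
      A.odd3 w.hE hg he e1 d (k := 3) (by decide) (pow_three' g ▸ k _ (mem_Cen.1 (mul_mem (mul_mem
        (mem_Cen.2 d.symm) (mem_Cen.2 d.symm)) (mem_Cen.2 d.symm))).symm ⟨a, b⟩)
    rcases act6 (A.fc w.f) w.f.it.1 w.f.iu.1 w.f.it.2 w.f.iu.2 w.f.ne (nb g hg)
      (by simpa [← h1, mul_assoc] using nb _ (mul_mem hg hn)) with
      ⟨a, b⟩ | ⟨a, b⟩ | ⟨a, b⟩ | ⟨a, b⟩ | ⟨a, b, f⟩ | ⟨a, b, f⟩
    · exact k g d ⟨of_cj a, of_cj b⟩
    · exact k g d (z t (Or.inr (Or.inl rfl)) w.f.it.2 g (of_cj a))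
    · exact k g d (z u (Or.inr (Or.inr (Or.inl rfl))) w.f.iu.2 g (of_cj a))
    · exact k g d (z _ (Or.inr (Or.inr (Or.inr rfl))) (A.fm w.f).iu.2 g (of_cj a))
    · exact k3 (cyc3 a b f) (cyc3 b f a)
    · exact k3 (cyc3 b f a) (cyc3 a b f)
  have m : t ∈ (Cen t).normalCore := fun k => by
    rcases dih (X := ⊤) (mem_top _) (mem_top _) (cj_sq w.f.it.1 k) (w.hE.1 x hx) with
      ⟨m, -, e⟩ | ⟨i, -, i1, i2, c1, c2⟩
    · have := card_Cen_conj m (k * t * k⁻¹)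
      have l := card_le_of_le ((A.leD w).trans inf_le_right)
      rw [e, hC x hx x0, card_Cen_conj, w.hE.2] at this
      rw [A.cardD w] at l
      omega
    · have i0 : i ∈ E := (hC x hx x0).le (mem_Cen.2 c2)
      by_cases q : B4 t u i
      · exact mem_Cen.2 (z i q i1 _ c1).1.symm
      · exact mem_Cen.2 (w.hE.comm w.t0 ((hC i i0 q).le (mem_Cen.2 c1.symm)))
  rcases A.sn.normal_cases (Cen t).normalCore inferInstance with e | e
  · exact w.f.it.2 (mem_bot.1 (e ▸ m))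
  · exact w.f.it.2 (A.sn.center_eq fun g => (mem_Cen.1 ((Cen t).normalCore_le (e ▸ mem_top g))).symm)

theorem caseA (w : Tw Y E E' t u) : L34 Y N t u E E' := by
  have e : Cen t = E ⊔ E' :=
    le_antisymm (fun g hg => A.cenD w (mem_Cen.1 hg).symm) ((A.leD w).trans inf_le_right)
  obtain ⟨h, h0, h1, h2⟩ := A.cyc w
  exact ⟨w.f, w.hE, w.hE', fun x => ⟨fun q => A.wi w q.1 q.2, fun q =>
    ⟨B4.mem q w.t0 w.u0, B4.mem q w.t1 w.u1⟩⟩, e, e ▸ A.cardD w, e ▸ A.oddD w,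
    fun x hx => A.trE w h1 h2 hx, fun x hx => A.trE w.sw h1 h2 hx, fun x hx x2 =>
    A.wc w x2 ((A.memD w).1 (e ▸ hx)).1 ((A.memD w).1 (e ▸ hx)).2, h, h0, h1, h2,
    A.nrmB w.hE w.f w.t0 w.u0 (Or.inr (Or.inr (Or.inl h1))) (Or.inr (Or.inr (Or.inr h2))),
    A.nrmB w.hE' w.f w.t1 w.u1 (Or.inr (Or.inr (Or.inl h1))) (Or.inr (Or.inr (Or.inr h2)))⟩

theorem rank4 (hE : E16 E) : ∃ t u E E', L34 Y N t u E E' := by
  have := A.caseB hE
  simp only [UB, not_forall] at this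
  obtain ⟨E, E', t, u, a, b, f, c, d, c', d', ne⟩ := this
  exact ⟨t, u, E, E', A.caseA ⟨a, b, ne, f, c, d, c', d'⟩⟩

end Ax

end Cfsg.Agent.LD.F4
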